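import Cfsg.Agent.H874.Wf.Class2

/-!
# Block bases of irreducible elements (S3826, row PSU)
-/

set_option autoImplicit false
set_option linter.unusedSectionVars false

namespace Cfsg.Agent.H874.Wf

open Cfsg Cfsg.Agent.LieClassical.HermBasic Cfsg.Agent.LieClassical.HermSiegel
open Cfsg.Agent.LieClassical.SUBasic Matrix
open Cfsg.Agent.ClassicalGeometry.PSUAutCount Cfsg.Agent.ClassicalGeometry.UnitAutBasic
open Cfsg.Agent.H957.T5V Cfsg.Agent.H957.T5U Cfsg.Agent.H957.T5Conf Cfsg.Agent.H957.T5Pairs
open Cfsg.Agent.H177.MeetPSU (rho rho_apply rho_injective yy yy_apply ind_yy uniq ind_scal)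
open Cfsg.Agent.H533.Wf

variable {F : Type} [Field F] [Fintype F] {n q : ℕ} {x y : Equiv.Perm (Fin n → F)} {l : F}

theorem Irr.l0 (hi : Irr q x l) : l ≠ 0 := by
  rintro rfl
  have := hi.nl
  rw [zero_mul] at this
  exact zero_ne_one this

theorem Irr.l1 (hi : Irr q x l) : l ≠ 1 := by
  rintro rfl
  exact hi.nc 1 (one_pow 3)

theorem Irr.x3 (hi : Irr q x l) (v : Fin n → F) : x (x (x v)) = l • v := by
  rw [← hi.cube v]; rfl

/-- Orthonormal blocks. -/
structure Blk (q : ℕ) (x : Equiv.Perm (Fin n → F)) {k : ℕ} (a : Fin k → (Fin n → F)) : Prop where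
  b1 : ∀ i j, hermForm n F q (a i) (a j) = if i = j then 1 else 0
  b2 : ∀ i j, hermForm n F q (x (a i)) (a j) = 0
  b3 : ∀ i j, hermForm n F q (x (x (a i))) (a j) = 0

/-- The basis of a block family. -/
def ee (x : Equiv.Perm (Fin n → F)) {k : ℕ} (a : Fin k → (Fin n → F)) (p : Fin (k * 3)) :
    Fin n → F :=
  (x ^ ((finProdFinEquiv.symm p).2 : ℕ)) (a (finProdFinEquiv.symm p).1)

theorem ee_mk {k : ℕ} (a : Fin k → (Fin n → F)) (i : Fin k) (r : Fin 3) :
    ee x a (finProdFinEquiv (i, r)) = (x ^ (r : ℕ)) (a i) := by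
  simp [ee]

theorem Blk.gram (hF : Fintype.card F = q ^ 2) (hx : SI q (1 : F ≃+* F) x) {k : ℕ}
    {a : Fin k → (Fin n → F)} (ha : Blk q x a) (i j : Fin k) (r s : Fin 3) :
    hermForm n F q ((x ^ (r : ℕ)) (a i)) ((x ^ (s : ℕ)) (a j))
      = if i = j ∧ r = s then 1 else 0 := by
  have hxx : ∀ u v, hermForm n F q (x u) (x v) = hermForm n F q u v := fun u v => hx.herm u v
  have e2 : ∀ i j, hermForm n F q (a i) (x (a j)) = 0 := fun i j =>
    herm_eq_zero_swap hF (ha.b2 j i)
  have e3 : ∀ i j, hermForm n F q (a i) (x (x (a j))) = 0 := fun i j =>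
    herm_eq_zero_swap hF (ha.b3 j i)
  have key : ∀ u : Fin n → F, (x ^ 2) u = x (x u) := fun u => rfl
  fin_cases r <;> fin_cases s <;>
    simp [pow_zero, pow_one, key, hxx, ha.b1, ha.b2, ha.b3, e2, e3]

theorem Blk.ort (hF : Fintype.card F = q ^ 2) (hx : SI q (1 : F ≃+* F) x) {k : ℕ}
    {a : Fin k → (Fin n → F)} (ha : Blk q x a) : Ort q (ee x a) := by
  intro p p'
  obtain ⟨⟨i, r⟩, rfl⟩ := finProdFinEquiv.surjective p
  obtain ⟨⟨j, s⟩, rfl⟩ := finProdFinEquiv.surjective p'
  rw [ee_mk, ee_mk, ha.gram hF hx]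
  by_cases h : i = j ∧ r = s
  · obtain ⟨rfl, rfl⟩ := h
    simp
  · rw [if_neg h, if_neg]
    intro h'
    have := finProdFinEquiv.injective h'
    exact h ⟨congrArg Prod.fst this, congrArg Prod.snd this⟩

theorem x_ee (hi : Irr q x l) {k : ℕ} (a : Fin k → (Fin n → F)) (p : Fin (k * 3)) :
    ∃ (p' : Fin (k * 3)) (c : F), c ≠ 0 ∧ x (ee x a p') = c • ee x a p := by
  obtain ⟨⟨i, r⟩, rfl⟩ := finProdFinEquiv.surjective p
  fin_cases r
  · refine ⟨finProdFinEquiv (i, 2), l, hi.l0, ?_⟩
    rw [ee_mk, ee_mk]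
    exact hi.x3 (a i)
  · refine ⟨finProdFinEquiv (i, 0), 1, one_ne_zero, ?_⟩
    rw [ee_mk, ee_mk, one_smul]
    rfl
  · refine ⟨finProdFinEquiv (i, 1), 1, one_ne_zero, ?_⟩
    rw [ee_mk, ee_mk, one_smul]
    rfl

/-- The induction step. -/
theorem Blk.step (hF : Fintype.card F = q ^ 2) (h31 : 3 ∣ q + 1) (h3 : (3 : F) ≠ 0)
    (hx : SI q (1 : F ≃+* F) x) (hi : Irr q x l) {k : ℕ} {a : Fin k → (Fin n → F)}
    (ha : Blk q x a) (hk : k * 3 < n) : ∃ a' : Fin (k + 1) → (Fin n → F), Blk q x a' := by
  classical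
  have he := ha.ort hF hx
  set e := ee x a with hed
  obtain ⟨f, hf, hfc⟩ := exists_end hx.semi
  -- the projection
  let π : (Fin n → F) →ₗ[F] (Fin n → F) :=
    { toFun := fun z => ∑ p, hermForm n F q z (e p) • e p
      map_add' := fun z z' => by
        rw [← Finset.sum_add_distrib]
        exact Finset.sum_congr rfl fun p _ => by rw [herm_add_left, add_smul]
      map_smul' := fun c z => by
        rw [RingHom.id_apply, Finset.smul_sum]
        exact Finset.sum_congr rfl fun p _ => by rw [herm_smul_left, mul_smul] }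
  have hπd : ∀ z, π z = ∑ p, hermForm n F q z (e p) • e p := fun _ => rfl
  have hπe : ∀ z p, hermForm n F q (π z) (e p) = hermForm n F q z (e p) := by
    intro z p
    rw [hπd, herm_sum_left]
    simp only [herm_smul_left, he _ _]
    simp
  have hπ0 : ∀ z, (∀ p, hermForm n F q z (e p) = 0) → π z = 0 := by
    intro z hz
    rw [hπd]
    exact Finset.sum_eq_zero fun p _ => by rw [hz, zero_smul]
  have hort : ∀ z z', (∀ p, hermForm n F q z (e p) = 0) → hermForm n F q z (π z') = 0 := by
    intro z z' hz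
    rw [hπd, herm_sum_right hF]
    exact Finset.sum_eq_zero fun p _ => by rw [herm_smul_right, hz, mul_zero]
  have hYπ : ∀ z p, hermForm n F q (z - π z) (e p) = 0 := by
    intro z p
    rw [herm_sub_left, hπe, sub_self]
  have hxY : ∀ z, (∀ p, hermForm n F q z (e p) = 0) → ∀ p, hermForm n F q (x z) (e p) = 0 := by
    intro z hz p
    obtain ⟨p', c, hc, hp'⟩ := x_ee hi a p
    have h1 : hermForm n F q (x z) (x (e p')) = 0 := by rw [hx.herm, hz, map_zero]
    rw [hp', herm_smul_right] at h1
    exact (mul_eq_zero.1 h1).resolve_left (pow_ne_zero _ hc)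
  let f' : Module.End F (Fin n → F) :=
    (f : (Fin n → F) →ₗ[F] (Fin n → F)).comp (LinearMap.id - π) + π
  have hf' : ∀ z, f' z = x (z - π z) + π z := by
    intro z
    change f (z - π z) + π z = _
    rw [hf]
  have hf'iso : ∀ u v, hermForm n F q (f' u) (f' v) = hermForm n F q u v := by
    intro u v
    have h1 : hermForm n F q (x (u - π u)) (x (v - π v)) = hermForm n F q (u - π u) (v - π v) :=
      hx.herm _ _
    have h2 : hermForm n F q (x (u - π u)) (π v) = 0 := hort _ _ (hxY _ (hYπ u))
    have h4 : hermForm n F q (π u) (x (v - π v)) = 0 :=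
      herm_eq_zero_swap hF (hort _ _ (hxY _ (hYπ v)))
    have h5 : hermForm n F q (u - π u) (π v) = 0 := hort _ _ (hYπ u)
    have h6 : hermForm n F q (π u) (v - π v) = 0 := herm_eq_zero_swap hF (hort _ _ (hYπ v))
    have h7 : hermForm n F q u v = hermForm n F q (u - π u + π u) (v - π v + π v) := by
      rw [sub_add_cancel, sub_add_cancel]
    rw [hf', hf', h7, herm_add_left, herm_add_left (u - π u), herm_add_right hF,
      herm_add_right hF, herm_add_right hF, herm_add_right hF, h1, h2, h4, h5, h6]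
  have hf'pow : ∀ (m : ℕ) (z : Fin n → F), (f' ^ m) z = (x ^ m) (z - π z) + π z ∧
      (∀ p, hermForm n F q ((x ^ m) (z - π z)) (e p) = 0) := by
    intro m
    induction m with
    | zero => intro z; exact ⟨by simp, hYπ z⟩
    | succ m ih =>
      intro z
      obtain ⟨h1, h2⟩ := ih z
      have h4 : π ((x ^ m) (z - π z) + π z) = π z := by
        have h5 : π (π z) = π z := by
          have h6 : π (π z - z) = 0 := by
            apply hπ0
            intro p
            rw [herm_sub_left, hπe, sub_self]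
          rw [map_sub] at h6
          exact sub_eq_zero.1 h6
        rw [map_add, hπ0 _ h2, zero_add, h5]
      refine ⟨?_, ?_⟩
      · rw [pow_succ' f', Module.End.mul_apply, h1, hf', h4, add_sub_cancel_right, pow_succ' x]
        rfl
      · intro p
        rw [pow_succ' x]
        exact hxY _ h2 p
  have hP : Irreducible (Polynomial.X ^ 3 - Polynomial.C l : Polynomial F) :=
    X_pow_sub_C_irreducible_of_prime Nat.prime_three hi.nc
  have haev : ∀ z, Polynomial.aeval f' (Polynomial.X ^ 3 - Polynomial.C l : Polynomial F) z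
      = (1 - l) • π z := by
    intro z
    rw [map_sub, map_pow, Polynomial.aeval_X, Polynomial.aeval_C, LinearMap.sub_apply,
      Module.algebraMap_end_apply, (hf'pow 3 z).1, hi.cube]
    module
  -- a nonisotropic vector of `Y`
  obtain ⟨w, hww, hw⟩ := he.exists_z hF hk
  have hN : f' ^ (q ^ 3 + 1) = 1 := by
    obtain ⟨m, hm⟩ := dvd_pow_add Nat.prime_three (by norm_num) h31
    have h1 : ∀ (m : ℕ) v, ((x ^ 3) ^ m) v = l ^ m • v := by
      intro m
      induction m with
      | zero => intro v; simp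
      | succ m ih =>
        intro v
        rw [pow_succ, Equiv.Perm.mul_apply, ih, hi.cube, smul_smul, pow_succ]
    refine LinearMap.ext fun z => ?_
    change (f' ^ (q ^ 3 + 1)) z = z
    rw [(hf'pow _ _).1, hm, mul_assoc, pow_mul, h1, pow_mul, pow_succ' l q, hi.nl, one_pow,
      one_smul, sub_add_cancel]
  obtain ⟨v, hv, hvT⟩ := data hF (j := 3) (by decide) hf'iso hN hP (w := w)
    (by rw [haev, hπ0 w hw, smul_zero]) hww (m := 1)
    (by rw [Polynomial.natDegree_X_pow_sub_C]) (fun k => if k = 0 then 1 else 0) (by simp)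
  have hπv : π v = 0 := by
    rw [haev] at hv
    exact (smul_eq_zero.1 hv).resolve_left (sub_ne_zero.2 hi.l1.symm)
  have hve : ∀ p, hermForm n F q v (e p) = 0 := by
    intro p
    rw [← hπe, hπv, herm_zero_left]
  have hvv : hermForm n F q v v = 1 := by
    have := hvT 0 (by omega)
    simpa using this
  have hxv : hermForm n F q (x v) v = 0 := by
    have := hvT 1 le_rfl
    rw [pow_one, hf', hπv, sub_zero, add_zero] at this
    simpa using this
  have hxxv : hermForm n F q (x (x v)) v = 0 := by
    have h1 := hx.herm (x (x v)) v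
    rw [hi.x3, herm_smul_left, herm_eq_zero_swap hF hxv, mul_zero] at h1
    exact h1.symm
  -- orthogonality to the old blocks
  have hv0 : ∀ i, hermForm n F q v (a i) = 0 := by
    intro i
    have := hve (finProdFinEquiv (i, 0))
    rw [hed, ee_mk] at this
    exact this
  have hxY' : ∀ i, hermForm n F q (x v) (a i) = 0 := by
    intro i
    have := hxY v hve (finProdFinEquiv (i, 0))
    rw [hed, ee_mk] at this
    exact this
  have hxxY' : ∀ i, hermForm n F q (x (x v)) (a i) = 0 := by
    intro i
    have := hxY _ (hxY v hve) (finProdFinEquiv (i, 0))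
    rw [hed, ee_mk] at this
    exact this
  have hv1 : ∀ i, hermForm n F q (x (a i)) v = 0 := by
    intro i
    have := hve (finProdFinEquiv (i, 1))
    rw [hed, ee_mk] at this
    exact herm_eq_zero_swap hF this
  have hv2 : ∀ i, hermForm n F q (x (x (a i))) v = 0 := by
    intro i
    have := hve (finProdFinEquiv (i, 2))
    rw [hed, ee_mk] at this
    exact herm_eq_zero_swap hF this
  refine ⟨Fin.snoc a v, ⟨?_, ?_, ?_⟩⟩
  · intro i j
    induction i using Fin.lastCases with
    | last =>
      induction j using Fin.lastCases with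
      | last => simpa using hvv
      | cast j =>
        rw [Fin.snoc_last, Fin.snoc_castSucc, hv0, if_neg (Fin.castSucc_lt_last j).ne']
    | cast i =>
      induction j using Fin.lastCases with
      | last =>
        rw [Fin.snoc_last, Fin.snoc_castSucc, if_neg (Fin.castSucc_lt_last i).ne]
        exact herm_eq_zero_swap hF (hv0 i)
      | cast j =>
        rw [Fin.snoc_castSucc, Fin.snoc_castSucc, ha.b1]
        simp [Fin.castSucc_inj]
  · intro i j
    induction i using Fin.lastCases with
    | last =>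
      induction j using Fin.lastCases with
      | last => simpa using hxv
      | cast j => rw [Fin.snoc_last, Fin.snoc_castSucc, hxY']
    | cast i =>
      induction j using Fin.lastCases with
      | last => rw [Fin.snoc_last, Fin.snoc_castSucc, hv1]
      | cast j => rw [Fin.snoc_castSucc, Fin.snoc_castSucc, ha.b2]
  · intro i j
    induction i using Fin.lastCases with
    | last =>
      induction j using Fin.lastCases with
      | last => simpa using hxxv
      | cast j => rw [Fin.snoc_last, Fin.snoc_castSucc, hxxY']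
    | cast i =>
      induction j using Fin.lastCases with
      | last => rw [Fin.snoc_last, Fin.snoc_castSucc, hv2]
      | cast j => rw [Fin.snoc_castSucc, Fin.snoc_castSucc, ha.b3]

theorem exists_blk (hF : Fintype.card F = q ^ 2) (h31 : 3 ∣ q + 1) (h3 : (3 : F) ≠ 0)
    (hx : SI q (1 : F ≃+* F) x) (hi : Irr q x l) :
    ∃ (k : ℕ) (a : Fin k → (Fin n → F)), k * 3 = n ∧ Blk q x a := by
  by_contra hcon
  have hle : ∀ {k : ℕ} {a : Fin k → (Fin n → F)}, Blk q x a → k * 3 ≤ n := by
    intro k a ha
    have h1 := (li_orth hF (ha.ort hF hx)).fintype_card_le_finrank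
    rwa [Fintype.card_fin, Module.finrank_fin_fun] at h1
  have hall : ∀ k : ℕ, ∃ a : Fin k → (Fin n → F), Blk q x a := by
    intro k
    induction k with
    | zero => exact ⟨fun i => i.elim0, ⟨fun i => i.elim0, fun i => i.elim0, fun i => i.elim0⟩⟩
    | succ k ih =>
      obtain ⟨a, ha⟩ := ih
      refine ha.step hF h31 h3 hx hi (lt_of_le_of_ne (hle ha) ?_)
      intro h
      exact hcon ⟨k, a, h, ha⟩
  obtain ⟨a, ha⟩ := hall (n + 1)
  have := hle ha
  omega

end Cfsg.Agent.H874.Wf
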