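import Cfsg.Agent.H874.Wf.Cyc
import Cfsg.Agent.H957.T5U12

/-!
# Classification of the lifts (S3826, row PSU)
-/

set_option autoImplicit false
set_option linter.unusedSectionVars false

namespace Cfsg.Agent.H874.Wf

open Cfsg Cfsg.Agent.LieClassical.HermBasic Cfsg.Agent.LieClassical.HermSiegel
open Cfsg.Agent.LieClassical.SUBasic Matrix
open Cfsg.Agent.ClassicalGeometry.PSUAutCount Cfsg.Agent.ClassicalGeometry.UnitAutBasic
open Cfsg.Agent.H957.T5V Cfsg.Agent.H957.T5U Cfsg.Agent.H957.T5Conf
open Cfsg.Agent.H177.MeetPSU (rho rho_apply rho_injective yy yy_apply ind_yy uniq ind_scal)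
open Cfsg.Agent.H903.SylSemi (Ind scal scal_apply)
open Cfsg.Agent.H533.Wf

variable {F : Type} [Field F] [Fintype F] {n q : ℕ}
variable {Γ : Subgroup (MulAut (PSU n F q))} {C D : Set (MulAut (PSU n F q))}
  {σ τ : F ≃+* F} {x y : Equiv.Perm (Fin n → F)}

/-- Diagonal with eigenvalues `1, ω, ω²` (for `n = 3`). -/
structure Reg (q : ℕ) (ω : F) (x : Equiv.Perm (Fin n → F)) (b : Fin 3 → (Fin n → F)) : Prop where
  ort : Ort q b
  e0 : x (b 0) = b 0
  e1 : x (b 1) = ω • b 1
  e2 : x (b 2) = ω ^ 2 • b 2

/-- The cube is a scalar that is not a cube. -/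
structure Irr (q : ℕ) (x : Equiv.Perm (Fin n → F)) (l : F) : Prop where
  cube : ∀ v, (x ^ 3) v = l • v
  nl : l * l ^ q = 1
  nc : ∀ t : F, t ^ 3 ≠ l

theorem root_cases {ω z : F} (h1 : ω ≠ 1) (h2 : ω ^ 3 = 1) (hz : z ^ 3 = 1) :
    z = 1 ∨ z = ω ∨ z = ω ^ 2 := by
  have h3 := om_quad h1 h2
  have h4 : (z - 1) * ((z - ω) * (z - ω ^ 2)) = 0 := by
    linear_combination hz - (z - 1) * z * h3 + (z - 1) * h2
  rcases mul_eq_zero.1 h4 with h5 | h5
  · exact Or.inl (sub_eq_zero.1 h5)
  · rcases mul_eq_zero.1 h5 with h6 | h6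
    · exact Or.inr (Or.inl (sub_eq_zero.1 h6))
    · exact Or.inr (Or.inr (sub_eq_zero.1 h6))

theorem smulA_eig {v : Fin n → F} {η : F} (s : Fˣ) (h : x v = η • v) :
    smulA s x v = ((s : F) * η) • v := by
  rw [smulA_apply, h, smul_smul]

theorem eig_norm (hx : SI q σ x) {v : Fin n → F} {η : F} (hvv : hermForm n F q v v = 1)
    (h : x v = η • v) : η * η ^ q = 1 := by
  have h1 := hx.herm v v
  rw [h, herm_smul_left, herm_smul_right, hvv, map_one, mul_one] at h1
  exact h1

theorem Ort.comp {k m : ℕ} {b : Fin k → (Fin n → F)} (hb : Ort q b) {f : Fin m → Fin k}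
    (hf : Function.Injective f) : Ort q (fun i => b (f i)) := by
  intro i j
  rw [hb (f i) (f j)]
  by_cases h : i = j
  · rw [if_pos h, if_pos (congrArg f h)]
  · rw [if_neg h, if_neg (fun h' => h (hf h'))]

theorem Lf.sc (hx : Lf C σ x) {v : Fin n → F} {η : F} (hvv : hermForm n F q v v = 1)
    (h : x v = η • v) : ∃ s : Fˣ, (s : F) * η = 1 ∧ Lf C σ (Cfsg.Agent.H957.T5V.smulA s x) := by
  have h1 := eig_norm hx.1 hvv h
  have h0 : η ≠ 0 := by
    rintro rfl
    rw [zero_mul] at h1
    exact zero_ne_one h1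
  refine ⟨(Units.mk0 η h0)⁻¹, ?_, hx.smulA ?_⟩
  · rw [Units.val_inv_eq_inv_val, Units.val_mk0, inv_mul_cancel₀ h0]
  · rw [Units.val_inv_eq_inv_val, Units.val_mk0, inv_pow, ← mul_inv, h1, inv_one]

/-- Classification for `3 ∣ q + 1`. -/
theorem classify (h : ACfg 3 Γ C D) (hF : Fintype.card F = q ^ 2) (hn : 3 ≤ n)
    (h31 : 3 ∣ q + 1) {ω : F} (hω : Om q ω) (hx : Lf C σ x) :
    (∃ x' b η η', Lf C σ x' ∧ GT q σ x' b η η') ∨
    (n = 3 ∧ σ = 1 ∧ ∃ x' b, Lf C σ x' ∧ Reg q ω x' b) ∨
    (σ = 1 ∧ ∃ l, Irr q x l) := by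
  have hσ := hx.auto_cube h hF hn
  by_cases hσ1 : σ = 1
  · subst hσ1
    rcases scale_lin hF (by omega) Nat.prime_three (by norm_num) hx.1 (hx.cube h hF hn) with
      ⟨s, hs, hs3⟩ | ⟨-, l, hll, hl, hlt⟩
    · have hx' := hx.smulA hs
      set x' := smulA s x with hx'd
      obtain ⟨b, hb, hbe⟩ := exists_onb_eig hF Nat.prime_three h31 hx'.1 hs3 n le_rfl
      choose η hη using hbe
      have hb' : Ort q b := hb
      have hb1 : ∀ i, hermForm n F q (b i) (b i) = 1 := fun i => by rw [hb, if_pos rfl]
      -- not all eigenvalues are equal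
      have hns : ∀ i, ∃ k, η i ≠ η k := by
        intro i
        by_contra hcon
        push Not at hcon
        apply hx'.not_scal h hn
        refine ⟨η i, fun v => ?_⟩
        rw [hb'.expand hF v]
        have hlin : ∀ (m : ℕ) (g : Fin m → (Fin n → F)), x' (∑ j, g j) = ∑ j, x' (g j) := by
          intro m g
          induction m with
          | zero => simp [hx'.1.semi.zero]
          | succ m ih => rw [Fin.sum_univ_castSucc, Fin.sum_univ_castSucc, hx'.1.semi.add, ih]
        rw [hlin, Finset.smul_sum]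
        refine Finset.sum_congr rfl fun j _ => ?_
        rw [hx'.1.semi.smul, hη, ← hcon j]
        change hermForm n F q v (b j) • η i • b j = η i • hermForm n F q v (b j) • b j
        rw [smul_comm]
      by_cases hinj : Function.Injective η
      · -- `n = 3`
        have hη3 : ∀ i, η i ^ 3 = 1 := by
          intro i
          have h1 : (x' ^ 3) (b i) = (η i ^ 3) • b i := by
            rw [pow_succ, pow_two, Equiv.Perm.mul_apply, Equiv.Perm.mul_apply, hη,
              hx'.1.semi.smul, hη, hx'.1.semi.smul, hx'.1.semi.smul, hη]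
            change η i • η i • η i • b i = _
            rw [smul_smul, smul_smul]
            congr 1
            ring
          rw [hs3] at h1
          have h2 : (η i ^ 3 - 1) • b i = 0 := by
            rw [sub_smul, one_smul, ← h1]; exact sub_self _
          refine sub_eq_zero.1 ((smul_eq_zero.1 h2).resolve_right ?_)
          intro h3
          have := hb1 i
          rw [h3, herm_zero_left] at this
          exact zero_ne_one this
        have hroot : ∀ i, η i = 1 ∨ η i = ω ∨ η i = ω ^ 2 := fun i =>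
          root_cases hω.ne hω.cube (hη3 i)
        have hn3 : n = 3 := by
          have hle : n ≤ 3 := by
            classical
            have h1 : ∀ i, η i ∈ ({1, ω, ω ^ 2} : Finset F) := by
              intro i
              rcases hroot i with h2 | h2 | h2 <;> rw [h2] <;> simp
            have h2 := Finset.card_le_card_of_injOn (s := (Finset.univ : Finset (Fin n))) η
              (fun i _ => h1 i) (fun i _ j _ hij => hinj hij)
            rw [Finset.card_univ, Fintype.card_fin] at h2
            exact h2.trans (Finset.card_le_three)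
          omega
        subst hn3
        right; left
        refine ⟨rfl, rfl, ?_⟩
        obtain ⟨t, ht, hx2⟩ := hx'.sc (hb1 0) (hη 0)
        have hη0 : η 0 ≠ 0 := by
          intro h0
          have := hη3 0
          rw [h0] at this
          norm_num at this
        have ht3 : (t : F) ^ 3 = 1 := by
          have h1 : ((t : F) * η 0) ^ 3 = 1 := by rw [ht, one_pow]
          rwa [mul_pow, hη3, mul_one] at h1
        have hz : ∀ i, ((t : F) * η i) ^ 3 = 1 := fun i => by rw [mul_pow, ht3, hη3, one_mul]
        have hne : ∀ i j, i ≠ j → (t : F) * η i ≠ (t : F) * η j := fun i j hij h1 =>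
          hij (hinj (mul_left_cancel₀ t.ne_zero h1))
        have h01 := hne 0 1 (by decide)
        have h02 := hne 0 2 (by decide)
        have h12 := hne 1 2 (by decide)
        rw [ht] at h01 h02
        have hcase : ((t : F) * η 1 = ω ∧ (t : F) * η 2 = ω ^ 2) ∨
            ((t : F) * η 1 = ω ^ 2 ∧ (t : F) * η 2 = ω) := by
          rcases root_cases hω.ne hω.cube (hz 1) with h1 | h1 | h1
          · exact absurd h1.symm h01
          · rcases root_cases hω.ne hω.cube (hz 2) with h2 | h2 | h2
            · exact absurd h2.symm h02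
            · exact absurd (h1.trans h2.symm) h12
            · exact Or.inl ⟨h1, h2⟩
          · rcases root_cases hω.ne hω.cube (hz 2) with h2 | h2 | h2
            · exact absurd h2.symm h02
            · exact Or.inr ⟨h1, h2⟩
            · exact absurd (h1.trans h2.symm) h12
        have e0 : smulA t x' (b 0) = b 0 := by rw [smulA_eig t (hη 0), ht, one_smul]
        rcases hcase with ⟨h1, h2⟩ | ⟨h1, h2⟩
        · refine ⟨_, b, hx2, ⟨hb', e0, ?_, ?_⟩⟩
          · rw [smulA_eig t (hη 1), h1]
          · rw [smulA_eig t (hη 2), h2]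
        · refine ⟨_, fun i => b (![0, 2, 1] i), hx2, ⟨hb'.comp (by decide), e0, ?_, ?_⟩⟩
          · change smulA t x' (b 2) = ω • b 2
            rw [smulA_eig t (hη 2), h2]
          · change smulA t x' (b 1) = ω ^ 2 • b 1
            rw [smulA_eig t (hη 1), h1]
      · left
        rw [Function.Injective] at hinj
        push Not at hinj
        obtain ⟨i, j, hij, hne⟩ := hinj
        obtain ⟨k, hk⟩ := hns i
        have hki : i ≠ k := fun h => hk (congrArg η h)
        have hkj : j ≠ k := by
          rintro rfl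
          exact hk hij
        refine ⟨x', fun m => b (![i, j, k] m), η i, η k, hx', ⟨hb'.comp ?_, hη i, ?_, hη k,
          Or.inr hk⟩⟩
        · intro a c hac
          fin_cases a <;> fin_cases c <;> simp_all
        · change x' (b j) = η i • b j
          rw [hη, hij]
    · right; right
      exact ⟨rfl, l, hl, hll, hlt⟩
  · left
    obtain ⟨s, hs, hs3⟩ := scale_semi hF (by omega) Nat.prime_three (by norm_num)
      (orderOf_three hσ hσ1) hx.1 (hx.cube h hF hn)
    have hx' := hx.smulA hs
    obtain ⟨b, hb, hbe⟩ := exists_onb_fix hF Nat.prime_three (by norm_num)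
      (orderOf_three hσ hσ1) hx'.1 hs3 3 hn
    exact ⟨_, b, 1, 1, hx', ⟨hb, by rw [hbe, one_smul], by rw [hbe, one_smul],
      by rw [hbe, one_smul], Or.inl hσ1⟩⟩

end Cfsg.Agent.H874.Wf
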