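import Cfsg.Agent.H874.Wf.Class

/-!
# Classification of the lifts, `3 ∣ q - 1`; cyclic data; regular diagonal elements
-/

set_option autoImplicit false
set_option linter.unusedSectionVars false

namespace Cfsg.Agent.H874.Wf

open Cfsg Cfsg.Agent.LieClassical.HermBasic Cfsg.Agent.LieClassical.HermSiegel
open Cfsg.Agent.LieClassical.SUBasic Matrix
open Cfsg.Agent.ClassicalGeometry.PSUAutCount Cfsg.Agent.ClassicalGeometry.UnitAutBasic
open Cfsg.Agent.H957.T5V Cfsg.Agent.H957.T5U Cfsg.Agent.H957.T5Conf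
open Cfsg.Agent.H177.MeetPSU (rho rho_apply rho_injective yy yy_apply ind_yy uniq ind_scal)
open Cfsg.Agent.H903.SylSemi (Ind scal scal_apply)
open Cfsg.Agent.H533.Wf

variable {F : Type} [Field F] [Fintype F] {n q : ℕ}
variable {Γ : Subgroup (MulAut (PSU n F q))} {C D : Set (MulAut (PSU n F q))}
  {σ τ : F ≃+* F} {x y : Equiv.Perm (Fin n → F)}

theorem q_mod (hF : Fintype.card F = q ^ 2) (h3 : (3 : F) ≠ 0) (h31 : ¬ 3 ∣ q + 1) :
    q % 3 = 1 := by
  have h1 : ¬ 3 ∣ q := by
    intro h
    obtain ⟨p, k, hp, hchar, hk, -⟩ := exists_prime_pow hF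
    have h4 : 3 ∣ p := Nat.prime_three.dvd_of_dvd_pow (by rwa [← hk])
    have h5 : 3 = p := (Nat.prime_dvd_prime_iff_eq Nat.prime_three hp).1 h4
    subst h5
    apply h3
    have := CharP.cast_eq_zero F 3
    exact_mod_cast this
  omega

theorem classify_one (h : ACfg 3 Γ C D) (hF : Fintype.card F = q ^ 2) (hn : 3 ≤ n)
    (h3 : (3 : F) ≠ 0) (h31 : ¬ 3 ∣ q + 1) (hx : Lf C σ x) :
    ∃ x', Lf C σ x' ∧ IP q σ x' := by
  classical
  have hσ := hx.auto_cube h hF hn
  by_cases hσ1 : σ = 1
  · subst hσ1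
    rcases scale_lin hF (by omega) Nat.prime_three (by norm_num) hx.1 (hx.cube h hF hn) with
      ⟨s, hs, hs3⟩ | ⟨h1, -⟩
    · have hx' := hx.smulA hs
      set x' := smulA s x with hx'd
      refine ⟨x', hx', ?_⟩
      -- a cube root of unity in the small field
      have hqm := q_mod hF h3 h31
      have : Fact (Nat.Prime 3) := ⟨Nat.prime_three⟩
      have hcard : 3 ∣ Fintype.card Fˣ := by
        rw [← Nat.card_eq_fintype_card, card_units_eq hF]
        have h5 := two_le hF
        have : 3 ∣ q - 1 := by omega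
        exact this.mul_left _
      obtain ⟨w, hw⟩ := exists_prime_orderOf_dvd_card 3 hcard
      have hw3 : w ^ 3 = 1 := by rw [← hw, pow_orderOf_eq_one]
      have hw1 : (w : F) ≠ 1 := by
        intro h
        have h1 : w = 1 := Units.ext h
        rw [h1, orderOf_one] at hw
        omega
      have hc : (w : F) ^ 3 = 1 := by
        rw [← Units.val_pow_eq_pow_val, hw3, Units.val_one]
      have hq2 := om_quad hw1 hc
      generalize (w : F) = ω at hw1 hc hq2
      have hωq : ω ^ q = ω := by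
        obtain ⟨k, hk⟩ : ∃ k, q = 3 * k + 1 := ⟨q / 3, by omega⟩
        rw [hk, pow_succ, pow_mul, hc, one_pow, one_mul]
      -- the claim for an eigenvector
      have hclaim : ∀ (ζ : F) (v : Fin n → F), ζ ≠ 1 → ζ ^ 3 = 1 → ζ ^ q = ζ → v ≠ 0 →
          x' v = ζ • v → IP q 1 x' := by
        intro ζ v h1 h2 hζq hv0 hv
        have hne : ζ * ζ ^ q ≠ 1 := by
          rw [hζq]
          intro h4
          apply h1
          calc ζ = ζ ^ 3 * (ζ * ζ)⁻¹ * 1 := by
                have : ζ ≠ 0 := by rintro rfl; norm_num at h2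
                field_simp
            _ = 1 := by rw [h2, h4]; norm_num
        refine ⟨v, ζ, hv0, ?_, hv, Or.inr hne⟩
        have h4 := hx'.1.herm v v
        rw [hv, herm_smul_left, herm_smul_right] at h4
        have h5 : (ζ * ζ ^ q - 1) * hermForm n F q v v = 0 := by
          rw [sub_mul, one_mul, mul_assoc, h4]
          exact sub_self _
        exact (mul_eq_zero.1 h5).resolve_left (sub_ne_zero.2 hne)
      have hlin : ∀ (a : F) (v : Fin n → F), x' (a • v) = a • x' v := fun a v => hx'.1.semi.smul a v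
      have h33 : ∀ v, x' (x' (x' v)) = v := by
        intro v
        have := congrArg (fun p : Equiv.Perm (Fin n → F) => p v) hs3
        simpa [pow_succ, Equiv.Perm.mul_apply] using this
      obtain ⟨v, hv⟩ : ∃ v, x' v ≠ v := by
        by_contra hcon
        push Not at hcon
        exact hx'.not_scal h hn ⟨1, fun v => by rw [hcon, one_smul]⟩
      by_cases h1 : v + ω ^ 2 • x' v + ω • x' (x' v) = 0
      · by_cases h2 : v + ω • x' v + ω ^ 2 • x' (x' v) = 0
        · exfalso
          apply hv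
          have h4 : (ω ^ 2 - ω) • (x' v - x' (x' v)) = 0 := by
            have : (ω ^ 2 - ω) • (x' v - x' (x' v)) = (v + ω ^ 2 • x' v + ω • x' (x' v))
              - (v + ω • x' v + ω ^ 2 • x' (x' v)) := by module
            rw [this, h1, h2, sub_zero]
          have h5 : ω ^ 2 - ω ≠ 0 := by
            intro h6
            have h7 : ω * (ω - 1) = 0 := by linear_combination h6
            rcases mul_eq_zero.1 h7 with h8 | h8
            · rw [h8] at hc; norm_num at hc
            · exact hw1 (sub_eq_zero.1 h8)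
          have h6 : x' v = x' (x' v) := sub_eq_zero.1 ((smul_eq_zero.1 h4).resolve_left h5)
          exact (x'.injective h6).symm
        · refine hclaim (ω ^ 2) _ ?_ ?_ ?_ h2 ?_
          · intro h4
            apply hw1
            have : ω = ω ^ 3 := by linear_combination (-ω) * h4
            rw [this, hc]
          · linear_combination (ω ^ 3 + 1) * hc
          · rw [← pow_mul, mul_comm, pow_mul, hωq]
          · rw [hx'.1.semi.add, hx'.1.semi.add, hlin, hlin, h33, smul_add, smul_add, smul_smul,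
              smul_smul, ← pow_succ, hc, one_smul]
            have : ω ^ 2 * ω ^ 2 = ω := by linear_combination ω * hc
            rw [this]
            abel
      · refine hclaim ω _ hw1 hc hωq h1 ?_
        rw [hx'.1.semi.add, hx'.1.semi.add, hlin, hlin, h33, smul_add, smul_add, smul_smul,
          smul_smul, ← pow_succ', hc, one_smul]
        rw [← pow_two]
        abel
    · exact absurd h1 h31
  · obtain ⟨s, hs, hs3⟩ := scale_semi hF (by omega) Nat.prime_three (by norm_num)
      (orderOf_three hσ hσ1) hx.1 (hx.cube h hF hn)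
    have hx' := hx.smulA hs
    obtain ⟨b, hb, hbe⟩ := exists_onb_fix hF Nat.prime_three (by norm_num)
      (orderOf_three hσ hσ1) hx'.1 hs3 3 hn
    obtain ⟨l, hl, hlσ, -⟩ := exists_lam hF hσ hσ
    have b00 : hermForm n F q (b 0) (b 0) = 1 := by rw [hb 0 0]; simp
    have b11 : hermForm n F q (b 1) (b 1) = 1 := by rw [hb 1 1]; simp
    have b01 : hermForm n F q (b 0) (b 1) = 0 := by rw [hb 0 1]; simp
    have b10 : hermForm n F q (b 1) (b 0) = 0 := by rw [hb 1 0]; simp
    refine ⟨_, hx', b 0 + l • b 1, 1, ?_, ?_, ?_, Or.inl hσ1⟩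
    · intro h0
      have h4 : hermForm n F q (b 0 + l • b 1) (b 0) = 0 := by rw [h0, herm_zero_left]
      rw [herm_add_left, herm_smul_left, b00, b10, mul_zero, add_zero] at h4
      exact one_ne_zero h4
    · rw [herm_add_left, herm_add_right hF, herm_add_right hF, herm_smul_left, herm_smul_left,
        herm_smul_right, herm_smul_right, b00, b01, b10, b11]
      linear_combination hl
    · rw [hx'.1.semi.add, hx'.1.semi.smul, hbe, hbe, hlσ, one_smul]

/-- The cyclic data of an irreducible element. -/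
theorem Irr.cyc (hF : Fintype.card F = q ^ 2) (hn : 0 < n) (h31 : 3 ∣ q + 1)
    (hx : SI q (1 : F ≃+* F) x) {l : F} (hi : Irr q x l) (h3 : (3 : F) ≠ 0) :
    ∃ u, Cyc q x l 1 u := by
  have hNT := nt_two hF hn Nat.prime_three (by norm_num) h31 hx hi.nl hi.cube hi.nc
  have hdeg : 3 ≤ (Polynomial.X ^ 3 - Polynomial.C l : Polynomial F).natDegree := by
    rw [Polynomial.natDegree_X_pow_sub_C]
  obtain ⟨u, hu, hu1⟩ := hNT.d3 hF (by exact_mod_cast h3) hx hdeg 1 one_ne_zero
  refine ⟨u, ⟨fun v => ?_, hi.nl, hu, hu1, one_ne_zero, ?_⟩⟩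
  · rw [← hi.cube v]
    rfl
  · rw [one_pow, one_pow, one_pow, mul_one, mul_one]
    intro h0
    have h1 : l ^ 2 = -1 := by
      have h2 := hi.nl
      have h4 : l ^ q = -l := by linear_combination h0
      rw [h4] at h2
      linear_combination -h2
    have hl0 : l ≠ 0 := by
      rintro rfl
      have := hi.nl
      rw [zero_mul] at this
      exact zero_ne_one this
    apply hi.nc l⁻¹
    rw [inv_pow]
    apply inv_eq_of_mul_eq_one_left
    have : l * l ^ 3 = (l ^ 2) ^ 2 := by ring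
    rw [this, h1]
    ring

theorem ext_onb (hF : Fintype.card F = q ^ 2) (hx : SI q (1 : F ≃+* F) x)
    (hy : SI q (1 : F ≃+* F) y) {b : Fin n → (Fin n → F)} (hb : Ort q b)
    (h : ∀ i, x (b i) = y (b i)) : x = y := by
  have hlin : ∀ {x : Equiv.Perm (Fin n → F)}, SI q (1 : F ≃+* F) x → ∀ (m : ℕ)
      (g : Fin m → (Fin n → F)), x (∑ j, g j) = ∑ j, x (g j) := by
    intro x hx m g
    induction m with
    | zero => simp [hx.semi.zero]
    | succ m ih => rw [Fin.sum_univ_castSucc, Fin.sum_univ_castSucc, hx.semi.add, ih]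
  ext1 v
  rw [hb.expand hF v, hlin hx, hlin hy]
  exact Finset.sum_congr rfl fun i _ => by rw [hx.semi.smul, hy.semi.smul, h]

theorem Om.pow_q {ω : F} (hω : Om q ω) : ω ^ q = ω ^ 2 := by
  have h0 : ω ≠ 0 := by
    rintro rfl
    have := hω.cube
    norm_num at this
  apply mul_left_cancel₀ h0
  rw [hω.norm, ← pow_succ', hω.cube]

/-- The cyclic data of a regular diagonal element, `n = 3`. -/
theorem Reg.cyc {x : Equiv.Perm (Fin 3 → F)} (hF : Fintype.card F = q ^ 2) (hq : q ≠ 2)
    (h3 : (3 : F) ≠ 0) (hx : SI q (1 : F ≃+* F) x) {ω : F} (hω : Om q ω)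
    {b : Fin 3 → (Fin 3 → F)} (hr : Reg q ω x b) : ∃ t u, Cyc q x 1 t u := by
  obtain ⟨ν, hν0, hν1, hνq⟩ := exists_nu_one hF hq
  have hb := hr.ort
  have b00 : hermForm 3 F q (b 0) (b 0) = 1 := by rw [hb 0 0]; simp
  have b11 : hermForm 3 F q (b 1) (b 1) = 1 := by rw [hb 1 1]; simp
  have b22 : hermForm 3 F q (b 2) (b 2) = 1 := by rw [hb 2 2]; simp
  have b01 : hermForm 3 F q (b 0) (b 1) = 0 := by rw [hb 0 1]; simp
  have b10 : hermForm 3 F q (b 1) (b 0) = 0 := by rw [hb 1 0]; simp
  have b02 : hermForm 3 F q (b 0) (b 2) = 0 := by rw [hb 0 2]; simp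
  have b12 : hermForm 3 F q (b 1) (b 2) = 0 := by rw [hb 1 2]; simp
  have b20 : hermForm 3 F q (b 2) (b 0) = 0 := by rw [hb 2 0]; simp
  have b21 : hermForm 3 F q (b 2) (b 1) = 0 := by rw [hb 2 1]; simp
  -- norms `1`, `-ν`, `ν - 1`
  obtain ⟨x1, hx1⟩ := exists_norm_eq hF (c := -ν) (by rw [neg_pow_q hF, hνq])
  obtain ⟨x2, hx2⟩ := exists_norm_eq hF (c := ν - 1) (by rw [sub_pow_q hF, hνq, one_pow])
  have hq2 := om_quad hω.ne hω.cube
  set t : F := 1 + -ν * ω + (ν - 1) * ω ^ 2 with ht
  have htq : t ^ q = 1 + -ν * ω ^ 2 + (ν - 1) * ω := by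
    rw [ht, add_pow_q hF, add_pow_q hF, mul_pow, mul_pow, neg_pow_q hF, sub_pow_q hF, one_pow,
      hνq, hω.pow_q, ← pow_mul, mul_comm 2 q, pow_mul, hω.pow_q]
    linear_combination (ν - 1) * ω * hω.cube
  have hne : (1 : F) ^ q * t ^ 3 + 1 * (t ^ q) ^ 3 ≠ 0 := by
    have h1 : (1 : F) ^ q * t ^ 3 + 1 * (t ^ q) ^ 3 = 27 * (-ν) * (ν - 1) := by
      have h2 : t + t ^ q = 3 := by
        rw [htq, ht]
        linear_combination (-1 : F) * hq2
      have h4 : t * t ^ q = 3 * (1 - ν + ν ^ 2) := by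
        rw [htq, ht]
        linear_combination (ν ^ 2 + (ν - 1) ^ 2 + -ν * (ν - 1) * ω) * hω.cube
          + (-ν + (ν - 1) + -ν * (ν - 1)) * hq2
      have h5 : t ^ 3 + (t ^ q) ^ 3 = (t + t ^ q) ^ 3 - 3 * (t * t ^ q) * (t + t ^ q) := by ring
      rw [one_pow, one_mul, one_mul, h5, h2, h4]
      ring
    rw [h1]
    refine mul_ne_zero (mul_ne_zero ?_ (neg_ne_zero.2 hν0)) (sub_ne_zero.2 hν1)
    have : (27 : F) = 3 ^ 3 := by norm_num
    rw [this]
    exact pow_ne_zero _ h3
  have ht0 : t ≠ 0 := by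
    intro h0
    apply hne
    rw [h0, zero_pow_q hF]
    ring
  refine ⟨t, b 0 + x1 • b 1 + x2 • b 2, ⟨?_, by rw [one_pow, one_mul], ?_, ?_, ht0, hne⟩⟩
  · intro v
    have hx3 : x * x * x = 1 := by
      refine ext_onb hF ((hx.mul hx).mul hx) SI.one hb ?_
      intro i
      rw [Equiv.Perm.mul_apply, Equiv.Perm.mul_apply]
      have hsm : ∀ (a : F) (v : Fin 3 → F), x (a • v) = a • x v := fun a v => hx.semi.smul a v
      fin_cases i
      · change x (x (x (b 0))) = b 0
        rw [hr.e0, hr.e0, hr.e0]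
      · change x (x (x (b 1))) = b 1
        rw [hr.e1, hsm, hr.e1, hsm, hsm, hr.e1, smul_smul, smul_smul]
        have : ω * ω * ω = 1 := by rw [← hω.cube]; ring
        rw [this, one_smul]
      · change x (x (x (b 2))) = b 2
        rw [hr.e2, hsm, hr.e2, hsm, hsm, hr.e2, smul_smul, smul_smul]
        have : ω ^ 2 * ω ^ 2 * ω ^ 2 = 1 := by
          linear_combination (ω ^ 3 + 1) * hω.cube
        rw [this, one_smul]
    have := congrArg (fun p : Equiv.Perm (Fin 3 → F) => p v) hx3
    rw [one_smul]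
    exact this
  · simp only [herm_add_left, herm_add_right hF, herm_smul_left, herm_smul_right, b00, b01, b02,
      b10, b11, b12, b20, b21, b22]
    linear_combination hx1 + hx2
  · have hxu : x (b 0 + x1 • b 1 + x2 • b 2) = b 0 + (x1 * ω) • b 1 + (x2 * ω ^ 2) • b 2 := by
      rw [hx.semi.add, hx.semi.add, hx.semi.smul, hx.semi.smul, hr.e0, hr.e1, hr.e2]
      change b 0 + x1 • ω • b 1 + x2 • ω ^ 2 • b 2 = _
      rw [smul_smul, smul_smul]
    rw [hxu]
    simp only [herm_add_left, herm_add_right hF, herm_smul_left, herm_smul_right, b00, b01, b02,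
      b10, b11, b12, b20, b21, b22]
    linear_combination ω * hx1 + ω ^ 2 * hx2

/-- Two regular diagonal elements, `n = 3`. -/
theorem false_of_reg {Γ : Subgroup (MulAut (PSU 3 F q))} {C D : Set (MulAut (PSU 3 F q))}
    {x y : Equiv.Perm (Fin 3 → F)} (h : ACfg 3 Γ C D) (hF : Fintype.card F = q ^ 2)
    (hx : Lf C 1 x) (hy : Lf D 1 y) {ω : F} {b b' : Fin 3 → (Fin 3 → F)}
    (h1 : Reg q ω x b) (h2 : Reg q ω y b') : False := by
  obtain ⟨s, κ, hκ, hs0, hs1, hs2⟩ := exists_triple hF le_rfl h1.ort h2.ort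
  have hy1 := hy.conj h.symm s
  have heq : rho 3 F q s * y * (rho 3 F q s)⁻¹ = x := by
    refine ext_onb hF hy1.1 hx.1 h1.ort ?_
    intro i
    fin_cases i
    · change (rho 3 F q s * y * (rho 3 F q s)⁻¹) (b 0) = x (b 0)
      rw [h1.e0, ← hs0, conj_apply', h2.e0]
    · change (rho 3 F q s * y * (rho 3 F q s)⁻¹) (b 1) = x (b 1)
      rw [h1.e1, ← hs1, conj_apply', h2.e1, act_smul]
    · change (rho 3 F q s * y * (rho 3 F q s)⁻¹) (b 2) = x (b 2)
      rw [h1.e2]
      have h3 : b 2 = act s (κ⁻¹ • b' 2) := by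
        rw [act_smul, hs2, smul_smul, inv_mul_cancel₀ hκ, one_smul]
      rw [h3, conj_apply', hy.1.semi.smul, h2.e2]
      change act s (κ⁻¹ • ω ^ 2 • b' 2) = _
      rw [smul_comm, act_smul]
  refine false_of_scl h le_rfl hx hy1 (j := 1) ?_
  rw [pow_one, heq]
  exact Scl.refl _

end Cfsg.Agent.H874.Wf
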