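import Cfsg.Agent.H874.Wf.Blocks
import Cfsg.Agent.H957.T5U3

/-!
# Irreducible elements with the same cube are conjugate under `SU` (S3826, row PSU)
-/

set_option autoImplicit false
set_option linter.unusedSectionVars false

namespace Cfsg.Agent.H874.Wf

open Cfsg Cfsg.Agent.LieClassical.HermBasic Cfsg.Agent.LieClassical.HermSiegel
open Cfsg.Agent.LieClassical.SUBasic Matrix
open Cfsg.Agent.ClassicalGeometry.PSUAutCount Cfsg.Agent.ClassicalGeometry.UnitAutBasic
open Cfsg.Agent.H957.T5V Cfsg.Agent.H957.T5U Cfsg.Agent.H957.T5Conf Cfsg.Agent.H957.T5Pairs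
open Cfsg.Agent.H177.MeetPSU (rho rho_apply rho_injective yy yy_apply ind_yy uniq ind_scal)
open Cfsg.Agent.H533.Wf

variable {F : Type} [Field F] [Fintype F] {n q : ℕ} {x y : Equiv.Perm (Fin n → F)} {l : F}

/-- The matrix of `z ↦ z + ∑ r, h(z, e r) (g r - e r)`. -/
def Zm (q : ℕ) (e g : Fin 3 → (Fin n → F)) : Matrix (Fin n) (Fin n) F :=
  1 + (Matrix.of fun i (r : Fin 3) => (g r - e r) i) * (Matrix.of fun (r : Fin 3) i => e r i ^ q)

theorem Zm_mulVec (e g : Fin 3 → (Fin n → F)) (z : Fin n → F) :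
    Zm q e g *ᵥ z = z + ∑ r, hermForm n F q z (e r) • (g r - e r) := by
  rw [Zm, Matrix.add_mulVec, Matrix.one_mulVec, ← Matrix.mulVec_mulVec]
  congr 1
  have h1 : ∀ r, ((Matrix.of fun (r : Fin 3) i => e r i ^ q) *ᵥ z) r = hermForm n F q z (e r) := by
    intro r
    rw [herm_def, Matrix.mulVec, dotProduct]
    refine Finset.sum_congr rfl fun i _ => ?_
    rw [Matrix.of_apply, mul_comm]
  funext i
  rw [Matrix.mulVec, dotProduct, Finset.sum_apply]
  refine Finset.sum_congr rfl fun r _ => ?_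
  rw [h1, Matrix.of_apply, Pi.smul_apply, smul_eq_mul, mul_comm]

theorem Zm_det {e g : Fin 3 → (Fin n → F)} (he : Ort q e) :
    (Zm q e g).det = (Matrix.of fun r s => hermForm n F q (g s) (e r) : Matrix (Fin 3) (Fin 3) F).det := by
  rw [Zm, Matrix.det_one_add_mul_comm]
  congr 1
  ext r s
  rw [Matrix.add_apply, Matrix.mul_apply, Matrix.of_apply]
  have h1 : ∑ i, (Matrix.of fun (r : Fin 3) i => e r i ^ q) r i
      * (Matrix.of fun i (r : Fin 3) => (g r - e r) i) i s = hermForm n F q (g s - e s) (e r) := by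
    rw [herm_def]
    refine Finset.sum_congr rfl fun i _ => ?_
    rw [Matrix.of_apply, Matrix.of_apply, mul_comm]
  rw [h1, herm_sub_left, he s r, Matrix.one_apply]
  by_cases h : r = s
  · subst h; simp
  · rw [if_neg h, if_neg (Ne.symm h)]; ring

/-- Commuting isometries of a given determinant. -/
structure Com (q : ℕ) (x : Equiv.Perm (Fin n → F)) (Z : Matrix (Fin n) (Fin n) F) (δ : F) :
    Prop where
  iso : ∀ u v, hermForm n F q (Z *ᵥ u) (Z *ᵥ v) = hermForm n F q u v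
  com : ∀ v, Z *ᵥ (x v) = x (Z *ᵥ v)
  det : Z.det = δ

theorem Com.one : Com q x (1 : Matrix (Fin n) (Fin n) F) 1 :=
  ⟨fun u v => by rw [Matrix.one_mulVec, Matrix.one_mulVec],
    fun v => by rw [Matrix.one_mulVec, Matrix.one_mulVec], Matrix.det_one⟩

theorem Com.mul {Z Z' : Matrix (Fin n) (Fin n) F} {δ δ' : F} (h : Com q x Z δ)
    (h' : Com q x Z' δ') : Com q x (Z * Z') (δ * δ') :=
  ⟨fun u v => by rw [← Matrix.mulVec_mulVec, ← Matrix.mulVec_mulVec, h.iso, h'.iso],
    fun v => by rw [← Matrix.mulVec_mulVec, ← Matrix.mulVec_mulVec, h'.com, h.com],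
    by rw [Matrix.det_mul, h.det, h'.det]⟩

theorem Com.pow {Z : Matrix (Fin n) (Fin n) F} {δ : F} (h : Com q x Z δ) (j : ℕ) :
    Com q x (Z ^ j) (δ ^ j) := by
  induction j with
  | zero => rw [pow_zero, pow_zero]; exact Com.one
  | succ j ih => rw [pow_succ, pow_succ]; exact ih.mul h

theorem Zm_iso (hF : Fintype.card F = q ^ 2) {e g : Fin 3 → (Fin n → F)} (he : Ort q e)
    (hg : Ort q g)
    (hs : ∀ z : Fin n → F, (∀ r, hermForm n F q z (e r) = 0) → ∀ r, hermForm n F q z (g r) = 0)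
    (u v : Fin n → F) :
    hermForm n F q (Zm q e g *ᵥ u) (Zm q e g *ᵥ v) = hermForm n F q u v := by
  set U := u - ∑ r, hermForm n F q u (e r) • e r with hU
  set V := v - ∑ r, hermForm n F q v (e r) • e r with hV
  have hz : ∀ z : Fin n → F, ∀ r,
      hermForm n F q (z - ∑ r, hermForm n F q z (e r) • e r) (e r) = 0 := by
    intro z r
    rw [herm_sub_left, herm_sum_left]
    simp only [herm_smul_left, he _ _]
    simp
  have hUe := hz u
  have hVe := hz v
  rw [← hU] at hUe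
  rw [← hV] at hVe
  have hUg := hs U hUe
  have hVg := hs V hVe
  have hZ : ∀ z : Fin n → F, Zm q e g *ᵥ z
      = (z - ∑ r, hermForm n F q z (e r) • e r) + ∑ r, hermForm n F q z (e r) • g r := by
    intro z
    rw [Zm_mulVec]
    simp only [smul_sub, Finset.sum_sub_distrib]
    abel
  have hu : u = U + ∑ r, hermForm n F q u (e r) • e r := by rw [hU]; abel
  have hv : v = V + ∑ r, hermForm n F q v (e r) • e r := by rw [hV]; abel
  have hgen : ∀ (g : Fin 3 → (Fin n → F)), Ort q g → (∀ r, hermForm n F q U (g r) = 0) →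
      (∀ r, hermForm n F q V (g r) = 0) → ∀ c d : Fin 3 → F,
      hermForm n F q (U + ∑ r, c r • g r) (V + ∑ r, d r • g r)
        = hermForm n F q U V + ∑ r, c r * d r ^ q := by
    intro g hg hUg hVg c d
    have h1 : hermForm n F q U (∑ r, d r • g r) = 0 := by
      rw [herm_sum_right hF]
      exact Finset.sum_eq_zero fun r _ => by rw [herm_smul_right, hUg, mul_zero]
    have h2 : hermForm n F q (∑ r, c r • g r) V = 0 := by
      rw [herm_sum_left]
      exact Finset.sum_eq_zero fun r _ => by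
        rw [herm_smul_left, herm_eq_zero_swap hF (hVg r), mul_zero]
    have h3 : hermForm n F q (∑ r, c r • g r) (∑ r, d r • g r) = ∑ r, c r * d r ^ q := by
      rw [herm_sum_left]
      refine Finset.sum_congr rfl fun r _ => ?_
      rw [herm_smul_left, herm_sum_right hF]
      congr 1
      simp only [herm_smul_right, hg _ _]
      simp
    rw [herm_add_left, herm_add_right hF, herm_add_right hF, h1, h2, h3]
    ring
  rw [hZ u, hZ v, ← hU, ← hV, hgen g hg hUg hVg]
  conv_rhs => rw [hu, hv]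
  rw [hgen e he hUe hVe]

/-- Solving `κ ^ 3 * l ^ j = δ`. -/
theorem exists_cube_mul (hF : Fintype.card F = q ^ 2) (h31 : 3 ∣ q + 1) {l δ : F}
    (hl : l * l ^ q = 1) (hnc : ∀ t : F, t ^ 3 ≠ l) (hδ : δ * δ ^ q = 1) :
    ∃ (κ : F) (j : ℕ), κ * κ ^ q = 1 ∧ κ ^ 3 * l ^ j = δ := by
  have hl0 : l ≠ 0 := by rintro rfl; rw [zero_mul] at hl; exact zero_ne_one hl
  have hδ0 : δ ≠ 0 := by rintro rfl; rw [zero_mul] at hδ; exact zero_ne_one hδ
  obtain ⟨g, hg⟩ := IsCyclic.exists_generator (α := Fˣ)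
  obtain ⟨a, ha⟩ := Subgroup.mem_zpowers_iff.1 (hg (Units.mk0 l hl0))
  obtain ⟨b, hb⟩ := Subgroup.mem_zpowers_iff.1 (hg (Units.mk0 δ hδ0))
  have ha3 : ¬ (3 : ℤ) ∣ a := by
    rintro ⟨c, rfl⟩
    apply hnc ((g ^ c : Fˣ) : F)
    have h1 : (g ^ c) ^ 3 = Units.mk0 l hl0 := by
      rw [← ha, mul_comm (3 : ℤ) c, _root_.zpow_mul]
      norm_cast
    have h2 := congrArg (fun u : Fˣ => (u : F)) h1
    simpa using h2
  obtain ⟨j, m, hjm⟩ : ∃ (j : ℕ) (m : ℤ), b = 3 * m + a * j := by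
    have h1 : a % 3 = 1 ∨ a % 3 = 2 := by omega
    have h2 : b % 3 = 0 ∨ b % 3 = 1 ∨ b % 3 = 2 := by omega
    rcases h2 with h2 | h2 | h2
    · exact ⟨0, b / 3, by push_cast; omega⟩
    · rcases h1 with h1 | h1
      · exact ⟨1, (b - a) / 3, by push_cast; omega⟩
      · exact ⟨2, (b - a * 2) / 3, by push_cast; omega⟩
    · rcases h1 with h1 | h1
      · exact ⟨2, (b - a * 2) / 3, by push_cast; omega⟩
      · exact ⟨1, (b - a) / 3, by push_cast; omega⟩
  have hkey : ((g ^ m : Fˣ) : F) ^ 3 * l ^ j = δ := by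
    have h1 : (g ^ m) ^ 3 * (Units.mk0 l hl0) ^ j = Units.mk0 δ hδ0 := by
      rw [← ha, ← hb, hjm, _root_.zpow_add, _root_.zpow_mul g a j, mul_comm (3 : ℤ) m,
        _root_.zpow_mul g m 3]
      norm_cast
    have h2 := congrArg (fun u : Fˣ => (u : F)) h1
    simpa using h2
  refine ⟨((g ^ m : Fˣ) : F), j, ?_, hkey⟩
  -- the norm is a cube root of unity in the small field
  set κ := ((g ^ m : Fˣ) : F) with hκ
  have hκ0 : κ ≠ 0 := Units.ne_zero _
  have h1 : (κ * κ ^ q) ^ 3 = 1 := by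
    have h2 : (κ * κ ^ q) ^ 3 * (l * l ^ q) ^ j = δ * δ ^ q := by
      rw [← hkey]
      ring
    rwa [hl, one_pow, mul_one, hδ] at h2
  have h2 : (κ * κ ^ q) ^ (q - 1) = 1 := by
    have h3 : (κ * κ ^ q) ^ q = κ * κ ^ q := norm_pow_q hF κ
    have h4 : κ * κ ^ q ≠ 0 := mul_ne_zero hκ0 (pow_ne_zero _ hκ0)
    apply mul_right_cancel₀ h4
    rw [one_mul, ← pow_succ, Nat.sub_add_cancel (q_pos hF), h3]
  have h3 : Nat.Coprime 3 (q - 1) := by
    rw [Nat.Prime.coprime_iff_not_dvd Nat.prime_three]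
    have h6 := two_le hF
    omega
  have h4 : orderOf (κ * κ ^ q) ∣ Nat.gcd 3 (q - 1) :=
    Nat.dvd_gcd (orderOf_dvd_of_pow_eq_one h1) (orderOf_dvd_of_pow_eq_one h2)
  rw [h3, Nat.dvd_one, orderOf_eq_one_iff] at h4
  exact h4

/-- The first block and its relations. -/
theorem exists_com (hF : Fintype.card F = q ^ 2) (h31 : 3 ∣ q + 1)
    (hx : SI q (1 : F ≃+* F) x) (hi : Irr q x l) {e : Fin 3 → (Fin n → F)} (he : Ort q e)
    (h0 : x (e 0) = e 1) (h1 : x (e 1) = e 2) {δ : F} (hδ : δ * δ ^ q = 1) :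
    ∃ Z : Matrix (Fin n) (Fin n) F, Com q x Z δ := by
  have h2 : x (e 2) = l • e 0 := by rw [← h1, ← h0, hi.x3]
  have hsm : ∀ (a : F) (v : Fin n → F), x (a • v) = a • x v := fun a v => hx.semi.smul a v
  have hxx : ∀ u v, hermForm n F q (x u) (x v) = hermForm n F q u v := fun u v => hx.herm u v
  have hlq : l ^ q ≠ 0 := pow_ne_zero _ hi.l0
  -- scalars on the block
  have hκ : ∀ κ : F, κ * κ ^ q = 1 → Com q x (Zm q e (fun r => κ • e r)) (κ ^ 3) := by
    intro κ hκ
    refine ⟨Zm_iso hF he ?_ ?_, ?_, ?_⟩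
    · intro i j
      rw [herm_smul_left, herm_smul_right, ← mul_assoc, hκ, one_mul, he]
    · intro z hz r
      rw [herm_smul_right, hz, mul_zero]
    · intro v
      rw [Zm_mulVec, Zm_mulVec, hx.semi.add]
      congr 1
      have e0 : hermForm n F q (x v) (e 1) = hermForm n F q v (e 0) := by rw [← h0, hxx]
      have e1 : hermForm n F q (x v) (e 2) = hermForm n F q v (e 1) := by rw [← h1, hxx]
      have e2 : l ^ q * hermForm n F q (x v) (e 0) = hermForm n F q v (e 2) := by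
        rw [← herm_smul_right, ← h2, hxx]
      have e2' : hermForm n F q (x v) (e 0) = l * hermForm n F q v (e 2) := by
        rw [← e2, ← mul_assoc, hi.nl, one_mul]
      simp only [Fin.sum_univ_three, hx.semi.add, hsm, hx.semi.sub, h0, h1, h2, e0, e1, e2']
      module
    · rw [Zm_det he, Matrix.det_fin_three]
      simp [herm_smul_left, he _ _]
      ring
  -- the cycle
  have hc : Com q x (Zm q e ![e 1, e 2, l • e 0]) l := by
    refine ⟨Zm_iso hF he ?_ ?_, ?_, ?_⟩
    · intro i j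
      fin_cases i <;> fin_cases j <;> simp [herm_smul_left, herm_smul_right, he _ _]
      rw [mul_comm]
      exact hi.nl
    · intro z hz r
      fin_cases r <;> simp [herm_smul_right, hz]
    · intro v
      rw [Zm_mulVec, Zm_mulVec, hx.semi.add]
      congr 1
      have e0 : hermForm n F q (x v) (e 1) = hermForm n F q v (e 0) := by rw [← h0, hxx]
      have e1 : hermForm n F q (x v) (e 2) = hermForm n F q v (e 1) := by rw [← h1, hxx]
      have e2 : l ^ q * hermForm n F q (x v) (e 0) = hermForm n F q v (e 2) := by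
        rw [← herm_smul_right, ← h2, hxx]
      have e2' : hermForm n F q (x v) (e 0) = l * hermForm n F q v (e 2) := by
        rw [← e2, ← mul_assoc, hi.nl, one_mul]
      simp only [Fin.sum_univ_three, Matrix.cons_val_zero, Matrix.cons_val_one,
        Matrix.cons_val, hx.semi.add, hsm, hx.semi.sub, h0, h1, h2, e0, e1, e2']
      module
    · rw [Zm_det he, Matrix.det_fin_three]
      simp [herm_smul_left, he _ _]
  obtain ⟨κ, j, hκκ, hκj⟩ := exists_cube_mul hF h31 hi.nl hi.nc hδ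
  exact ⟨_, by rw [← hκj]; exact (hκ κ hκκ).mul (hc.pow j)⟩

/-- Irreducible elements with the same cube are conjugate. -/
theorem Irr.conj (hF : Fintype.card F = q ^ 2) (hn : 3 ≤ n) (h31 : 3 ∣ q + 1) (h3 : (3 : F) ≠ 0)
    (hx : SI q (1 : F ≃+* F) x) (hy : SI q (1 : F ≃+* F) y) (hi : Irr q x l)
    (hi' : Irr q y l) : ∃ s : SU n F q, rho n F q s * y * (rho n F q s)⁻¹ = x := by
  obtain ⟨k, a, hk, ha⟩ := exists_blk hF h31 h3 hx hi
  obtain ⟨k', a', hk', ha'⟩ := exists_blk hF h31 h3 hy hi'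
  have hkk : k' = k := by omega
  subst hkk
  have hk0 : 0 < k' := by omega
  subst hk
  have he := ha.ort hF hx
  have he' := ha'.ort hF hy
  obtain ⟨M, hM, hMe⟩ := exists_iso_ext hF (ee y a') (ee x a) (li_orth hF he') (li_orth hF he)
    (fun i j => by rw [he' i j, he i j])
  -- `M` intertwines
  have hMlin : ∀ (m : ℕ) (g : Fin m → (Fin (k' * 3) → F)), M *ᵥ (∑ j, g j) = ∑ j, M *ᵥ (g j) := by
    intro m g
    induction m with
    | zero => simp
    | succ m ih => rw [Fin.sum_univ_castSucc, Fin.sum_univ_castSucc, Matrix.mulVec_add, ih]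
  have hxlin : ∀ {x : Equiv.Perm (Fin (k' * 3) → F)}, SI q (1 : F ≃+* F) x → ∀ (m : ℕ)
      (g : Fin m → (Fin (k' * 3) → F)), x (∑ j, g j) = ∑ j, x (g j) := by
    intro x hx m g
    induction m with
    | zero => simp [hx.semi.zero]
    | succ m ih => rw [Fin.sum_univ_castSucc, Fin.sum_univ_castSucc, hx.semi.add, ih]
  have hMp : ∀ p, M *ᵥ (y (ee y a' p)) = x (M *ᵥ (ee y a' p)) := by
    intro p
    obtain ⟨⟨i, r⟩, rfl⟩ := finProdFinEquiv.surjective p
    rw [hMe]
    fin_cases r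
    · have e1 : y (ee y a' (finProdFinEquiv (i, 0))) = ee y a' (finProdFinEquiv (i, 1)) := by
        rw [ee_mk, ee_mk]; rfl
      have e2 : x (ee x a (finProdFinEquiv (i, 0))) = ee x a (finProdFinEquiv (i, 1)) := by
        rw [ee_mk, ee_mk]; rfl
      change M *ᵥ (y (ee y a' (finProdFinEquiv (i, 0)))) = x (ee x a (finProdFinEquiv (i, 0)))
      rw [e1, e2, hMe]
    · have e1 : y (ee y a' (finProdFinEquiv (i, 1))) = ee y a' (finProdFinEquiv (i, 2)) := by
        rw [ee_mk, ee_mk]; rfl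
      have e2 : x (ee x a (finProdFinEquiv (i, 1))) = ee x a (finProdFinEquiv (i, 2)) := by
        rw [ee_mk, ee_mk]; rfl
      change M *ᵥ (y (ee y a' (finProdFinEquiv (i, 1)))) = x (ee x a (finProdFinEquiv (i, 1)))
      rw [e1, e2, hMe]
    · have e1 : y (ee y a' (finProdFinEquiv (i, 2))) = l • ee y a' (finProdFinEquiv (i, 0)) := by
        rw [ee_mk, ee_mk]; exact hi'.x3 _
      have e2 : x (ee x a (finProdFinEquiv (i, 2))) = l • ee x a (finProdFinEquiv (i, 0)) := by
        rw [ee_mk, ee_mk]; exact hi.x3 _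
      change M *ᵥ (y (ee y a' (finProdFinEquiv (i, 2)))) = x (ee x a (finProdFinEquiv (i, 2)))
      rw [e1, e2, Matrix.mulVec_smul, hMe]
  have hMint : ∀ v, M *ᵥ (y v) = x (M *ᵥ v) := by
    intro v
    rw [he'.expand hF v, hxlin hy, hMlin, hMlin, hxlin hx]
    refine Finset.sum_congr rfl fun p _ => ?_
    rw [hy.semi.smul, Matrix.mulVec_smul, Matrix.mulVec_smul, hx.semi.smul, hMp]
  -- correct the determinant
  have hdet : M.det ^ (q + 1) = 1 := LieClassical.GUOrder.det_mul_frob_det hF M hM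
  have hdet0 : M.det ≠ 0 := LieClassical.GUOrder.det_ne_zero_of_isom hF M hM
  have hζ : (M.det)⁻¹ * ((M.det)⁻¹) ^ q = 1 := by
    rw [← pow_succ', inv_pow, hdet, inv_one]
  let e : Fin 3 → (Fin (k' * 3) → F) := fun r => ee x a (finProdFinEquiv (⟨0, hk0⟩, r))
  have heo : Ort q e := he.comp (f := fun r => finProdFinEquiv (⟨0, hk0⟩, r)) (by
    intro r r' h
    exact congrArg Prod.snd (finProdFinEquiv.injective h))
  obtain ⟨Z, hZ⟩ := exists_com hF h31 hx hi heo
    (by change x (ee x a (finProdFinEquiv (⟨0, hk0⟩, 0))) = ee x a (finProdFinEquiv (⟨0, hk0⟩, 1))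
        rw [ee_mk, ee_mk]; rfl)
    (by change x (ee x a (finProdFinEquiv (⟨0, hk0⟩, 1))) = ee x a (finProdFinEquiv (⟨0, hk0⟩, 2))
        rw [ee_mk, ee_mk]; rfl) hζ
  let s : SU (k' * 3) F q := mkSU (Z * M) (by rw [Matrix.det_mul, hZ.det, inv_mul_cancel₀ hdet0])
    (fun u v => by rw [← Matrix.mulVec_mulVec, ← Matrix.mulVec_mulVec, hZ.iso, hM])
  refine ⟨s, ?_⟩
  rw [mul_inv_eq_iff_eq_mul]
  ext1 v
  rw [Equiv.Perm.mul_apply, Equiv.Perm.mul_apply, rho_apply, rho_apply]
  change (Z * M) *ᵥ (y v) = x ((Z * M) *ᵥ v)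
  rw [← Matrix.mulVec_mulVec, ← Matrix.mulVec_mulVec, hMint, hZ.com]

end Cfsg.Agent.H874.Wf
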