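import Cfsg.Agent.H874.Wf.Triple

/-!
# Cyclic elements against good triples (S3826, row PSU, `3 ∣ q + 1`)
-/

set_option autoImplicit false
set_option linter.unusedSectionVars false

namespace Cfsg.Agent.H874.Wf

open Cfsg Cfsg.Agent.LieClassical.HermBasic Cfsg.Agent.LieClassical.HermSiegel
open Cfsg.Agent.LieClassical.SUBasic Matrix
open Cfsg.Agent.ClassicalGeometry.PSUAutCount Cfsg.Agent.ClassicalGeometry.UnitAutBasic
open Cfsg.Agent.H957.T5V Cfsg.Agent.H957.T5U Cfsg.Agent.H957.T5Conf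
open Cfsg.Agent.H177.MeetPSU (rho rho_apply rho_injective yy yy_apply ind_yy uniq ind_scal)
open Cfsg.Agent.H903.SylSemi (Ind scal scal_apply)
open Cfsg.Agent.H533.Wf

variable {F : Type} [Field F] [Fintype F] {n q : ℕ}
variable {Γ : Subgroup (MulAut (PSU n F q))} {C D : Set (MulAut (PSU n F q))}
  {σ τ : F ≃+* F} {x y : Equiv.Perm (Fin n → F)}

/-- A cube root of unity. -/
structure Om (q : ℕ) (ω : F) : Prop where
  ne : ω ≠ 1
  cube : ω ^ 3 = 1
  norm : ω * ω ^ q = 1
  fix : ∀ τ : F ≃+* F, τ ^ 3 = 1 → τ ω = ω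

theorem om_quad {ω : F} (h1 : ω ≠ 1) (h2 : ω ^ 3 = 1) : ω ^ 2 + ω + 1 = 0 := by
  have h3 : (ω - 1) * (ω ^ 2 + ω + 1) = 0 := by linear_combination h2
  exact (mul_eq_zero.1 h3).resolve_left (sub_ne_zero.2 h1)

theorem exists_om (hF : Fintype.card F = q ^ 2) (h31 : 3 ∣ q + 1) : ∃ ω : F, Om q ω := by
  classical
  have : Fact (Nat.Prime 3) := ⟨Nat.prime_three⟩
  have hcard : 3 ∣ Fintype.card Fˣ := by
    rw [← Nat.card_eq_fintype_card, card_units_eq hF]
    exact h31.mul_right _
  obtain ⟨w, hw⟩ := exists_prime_orderOf_dvd_card 3 hcard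
  have hw3 : w ^ 3 = 1 := by rw [← hw, pow_orderOf_eq_one]
  have hw1 : (w : F) ≠ 1 := by
    intro h
    have h1 : w = 1 := Units.ext h
    rw [h1, orderOf_one] at hw
    omega
  have hc : (w : F) ^ 3 = 1 := by
    rw [← Units.val_pow_eq_pow_val, hw3, Units.val_one]
  have hq2 := om_quad hw1 hc
  refine ⟨w, hw1, hc, ?_, ?_⟩
  · obtain ⟨k, hk⟩ := h31
    rw [← pow_succ', hk, pow_mul, hc, one_pow]
  · intro τ hτ
    have h1 : (τ w - w) * (τ w - (w : F) ^ 2) = 0 := by
      have h2 : τ (w : F) ^ 2 + τ w + 1 = 0 := by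
        rw [← map_pow, ← map_one τ, ← map_add, ← map_add, hq2, map_zero]
      linear_combination h2 - τ (w : F) * hq2 + hc
    rcases mul_eq_zero.1 h1 with h2 | h2
    · exact sub_eq_zero.1 h2
    · exfalso
      have h3 : τ w = (w : F) ^ 2 := sub_eq_zero.1 h2
      have h4 : τ (τ w) = (w : F) := by
        rw [h3, map_pow, h3]
        linear_combination (w : F) * hc
      have h5 : τ (τ (τ w)) = (w : F) := RingEquiv.congr_fun hτ (w : F)
      rw [h4, h3] at h5
      apply hw1
      have h6 : (w : F) * (w - 1) = 0 := by linear_combination h5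
      exact sub_eq_zero.1 ((mul_eq_zero.1 h6).resolve_left w.ne_zero)

/-- Cyclic elements with the data of an isotropic vector. -/
structure Cyc (q : ℕ) (x : Equiv.Perm (Fin n → F)) (l t : F) (u : Fin n → F) : Prop where
  cube : ∀ v, x (x (x v)) = l • v
  nl : l * l ^ q = 1
  iso : hermForm n F q u u = 0
  sc : hermForm n F q (x u) u = t
  t0 : t ≠ 0
  ne : l ^ q * t ^ 3 + l * (t ^ q) ^ 3 ≠ 0

section gram

variable {l t : F} {u : Fin n → F}

theorem Cyc.h1 (hF : Fintype.card F = q ^ 2) (hc : Cyc q x l t u) :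
    hermForm n F q u (x u) = t ^ q := by rw [herm_swap hF (x u) u, hc.sc]

theorem Cyc.h2 (hx : SI q (1 : F ≃+* F) x) (hc : Cyc q x l t u) :
    hermForm n F q (x (x u)) (x u) = t := by rw [hx.herm, hc.sc]; rfl

theorem Cyc.h3 (hF : Fintype.card F = q ^ 2) (hx : SI q (1 : F ≃+* F) x) (hc : Cyc q x l t u) :
    hermForm n F q (x u) (x (x u)) = t ^ q := by rw [hx.herm, hc.h1 hF]; rfl

theorem Cyc.h4 (hF : Fintype.card F = q ^ 2) (hx : SI q (1 : F ≃+* F) x) (hc : Cyc q x l t u) :
    hermForm n F q (x (x u)) u = l * t ^ q := by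
  have h1 := hx.herm (x (x u)) u
  rw [hc.cube, herm_smul_left, hc.h1 hF] at h1
  exact h1.symm

theorem Cyc.h5 (hF : Fintype.card F = q ^ 2) (hx : SI q (1 : F ≃+* F) x) (hc : Cyc q x l t u) :
    hermForm n F q u (x (x u)) = l ^ q * t := by
  rw [herm_swap hF (x (x u)) u, hc.h4 hF hx, mul_pow, pow_q_pow_q hF]

theorem Cyc.h6 (hx : SI q (1 : F ≃+* F) x) (hc : Cyc q x l t u) :
    hermForm n F q (x u) (x u) = 0 := by rw [hx.herm, hc.iso, map_zero]

theorem Cyc.h7 (hx : SI q (1 : F ≃+* F) x) (hc : Cyc q x l t u) :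
    hermForm n F q (x (x u)) (x (x u)) = 0 := by rw [hx.herm, hc.h6 hx, map_zero]

/-- The decomposition `u = α x u + β x² u + w`. -/
theorem Cyc.decomp (hF : Fintype.card F = q ^ 2) (hx : SI q (1 : F ≃+* F) x)
    (hc : Cyc q x l t u) : ∃ α β : F, ∃ w : Fin n → F, α ≠ 0 ∧ β ≠ 0 ∧
      u = α • x u + β • x (x u) + w ∧ hermForm n F q w (x u) = 0 ∧
      hermForm n F q w (x (x u)) = 0 ∧ hermForm n F q w w ≠ 0 := by
  have ht := hc.t0
  have htq : t ^ q ≠ 0 := pow_ne_zero _ ht
  have hl0 : l ≠ 0 := by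
    intro h0
    have := hc.nl
    rw [h0, zero_mul] at this
    exact zero_ne_one this
  have hlq : l ^ q ≠ 0 := pow_ne_zero _ hl0
  set α := l ^ q * t / t ^ q with hα
  set β := t ^ q / t with hβ
  set w := u - α • x u - β • x (x u) with hw
  have e1 : hermForm n F q w (x u) = 0 := by
    rw [hw, herm_sub_left, herm_sub_left, herm_smul_left, herm_smul_left, hc.h1 hF, hc.h6 hx,
      hc.h2 hx, hβ]
    field_simp
    ring
  have e2 : hermForm n F q w (x (x u)) = 0 := by
    rw [hw, herm_sub_left, herm_sub_left, herm_smul_left, herm_smul_left, hc.h5 hF hx,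
      hc.h3 hF hx, hc.h7 hx, hα]
    field_simp
    ring
  have e3 : hermForm n F q w w = hermForm n F q w u := by
    conv_lhs => rw [hw]
    rw [herm_sub_right hF, herm_sub_right hF, herm_smul_right, herm_smul_right, ← hw, e1, e2]
    ring
  refine ⟨α, β, w, div_ne_zero (mul_ne_zero hlq ht) htq, div_ne_zero htq ht, ?_, e1, e2, ?_⟩
  · rw [hw]; module
  · rw [e3, hw, herm_sub_left, herm_sub_left, herm_smul_left, herm_smul_left, hc.iso, hc.sc,
      hc.h4 hF hx, hα, hβ]
    intro h0
    apply hc.ne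
    field_simp at h0
    linear_combination -h0

end gram

/-- The hyperbolic pair in the eigenspace. -/
structure Hy (q : ℕ) (τ : F ≃+* F) (y : Equiv.Perm (Fin n → F)) (b : Fin 3 → (Fin n → F))
    (θ ω l : F) (v1 v2 : Fin n → F) : Prop where
  d1 : v1 = b 0 + l • b 1
  d2 : v2 = b 0 + (l * ω) • b 1
  l0 : l ≠ 0
  i1 : hermForm n F q v1 v1 = 0
  i2 : hermForm n F q v2 v2 = 0
  h21 : hermForm n F q v2 v1 = 1 - ω
  h12 : hermForm n F q v1 v2 = 1 - ω ^ q
  z1 : hermForm n F q (b 2) v1 = 0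
  z2 : hermForm n F q (b 2) v2 = 0
  y1 : y v1 = θ • v1
  y2 : y v2 = θ • v2

theorem exists_hy (hF : Fintype.card F = q ^ 2) (hy : SI q τ y)
    (hτ : τ ^ 3 = 1) {b : Fin 3 → (Fin n → F)} {θ θ' ω : F} (hω : Om q ω)
    (hg : GT q τ y b θ θ') : ∃ l v1 v2, Hy q τ y b θ ω l v1 v2 := by
  obtain ⟨l, hl, -, hlτ⟩ := exists_lam (σ := 1) hF (one_pow 3) hτ
  have hωτ := hω.fix τ hτ
  have hb := hg.ort
  have b00 : hermForm n F q (b 0) (b 0) = 1 := by rw [hb 0 0]; simp
  have b11 : hermForm n F q (b 1) (b 1) = 1 := by rw [hb 1 1]; simp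
  have b01 : hermForm n F q (b 0) (b 1) = 0 := by rw [hb 0 1]; simp
  have b10 : hermForm n F q (b 1) (b 0) = 0 := by rw [hb 1 0]; simp
  have b20 : hermForm n F q (b 2) (b 0) = 0 := by rw [hb 2 0]; simp
  have b21 : hermForm n F q (b 2) (b 1) = 0 := by rw [hb 2 1]; simp
  refine ⟨l, b 0 + l • b 1, b 0 + (l * ω) • b 1, rfl, rfl, ?_, ?_, ?_, ?_, ?_, ?_, ?_, ?_, ?_⟩
  · rintro rfl
    rw [zero_mul] at hl
    exact neg_ne_zero.2 one_ne_zero hl.symm
  · simp only [herm_add_left, herm_add_right hF, herm_smul_left, herm_smul_right, b00, b01, b10,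
      b11]
    linear_combination hl
  · simp only [herm_add_left, herm_add_right hF, herm_smul_left, herm_smul_right, b00, b01, b10,
      b11, mul_pow]
    linear_combination ω * ω ^ q * hl - hω.norm
  · simp only [herm_add_left, herm_add_right hF, herm_smul_left, herm_smul_right, b00, b01, b10,
      b11, mul_pow]
    linear_combination ω * hl
  · simp only [herm_add_left, herm_add_right hF, herm_smul_left, herm_smul_right, b00, b01, b10,
      b11, mul_pow]
    linear_combination ω ^ q * hl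
  · simp only [herm_add_right hF, herm_smul_right, b20, b21]
    ring
  · simp only [herm_add_right hF, herm_smul_right, b20, b21]
    ring
  · rw [hy.semi.add, hy.semi.smul, hg.e0, hg.e1, hlτ, smul_add, smul_comm]
  · rw [hy.semi.add, hy.semi.smul, hg.e0, hg.e1, map_mul, hlτ, hωτ, smul_add, smul_comm]

/-- The main computation. -/
theorem cyc_core (h : ACfg 3 Γ C D) (hF : Fintype.card F = q ^ 2) (hn : 3 ≤ n)
    (hx : Lf C 1 x) (hy : Lf D τ y) {l t : F} {u : Fin n → F} (hc : Cyc q x l t u)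
    {b : Fin 3 → (Fin n → F)} {θ θ' ω m : F} (hω : Om q ω) (hg : GT q τ y b θ θ')
    {v1 v2 : Fin n → F} (hh : Hy q τ y b θ ω m v1 v2) {s : SU n F q} {ρ ρ' : F} (hρ : ρ ≠ 0)
    (hρ' : ρ' ≠ 0) (hs1 : act s (x u) = ρ • v1) (hs2 : act s (x (x u)) = ρ' • v2)
    {α β : F} {w : Fin n → F} (hα : α ≠ 0) (hβ : β ≠ 0) (hu : u = α • x u + β • x (x u) + w)
    (hw1 : hermForm n F q w (x u) = 0) (hw2 : hermForm n F q w (x (x u)) = 0) :
    τ (α * ρ) * (β * ρ') = τ (β * ρ') * (α * ρ) ∧
      (τ = 1 → y (act s w) = θ • act s w) := by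
  have hθ : θ ≠ 0 := by
    intro h0
    have := hg.norm hF hy.1
    rw [h0, zero_mul] at this
    exact zero_ne_one this
  have hl0 : l ≠ 0 := by
    intro h0
    have := hc.nl
    rw [h0, zero_mul] at this
    exact zero_ne_one this
  have hx1 := hx.conj h s
  set x1 := rho n F q s * x * (rho n F q s)⁻¹ with hx1d
  set X := act s u with hX
  have e1 : x1 X = ρ • v1 := by rw [hX, hx1d, conj_apply', hs1]
  have e2 : x1 (ρ • v1) = ρ' • v2 := by rw [← hs1, hx1d, conj_apply', hs2]
  have e3 : x1 (ρ' • v2) = l • X := by rw [← hs2, hx1d, conj_apply', hc.cube, act_smul]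
  have e4 : x1⁻¹ X = (l⁻¹ * ρ') • v2 := by
    apply x1.injective
    rw [apply_inv_self, mul_smul, hx1.1.semi.smul, e3]
    change X = l⁻¹ • l • X
    rw [smul_smul, inv_mul_cancel₀ hl0, one_smul]
  have hex : ∀ {a : F} {v : Fin n → F}, a ≠ 0 → y v = θ • v → ∃ c : F, y (a • v) = c • (a • v) := by
    intro a v ha hv
    refine ⟨τ a * θ * a⁻¹, ?_⟩
    rw [hy.1.semi.smul, hv, smul_smul, smul_smul, mul_assoc, inv_mul_cancel₀ ha, mul_one]
  obtain ⟨κ, hκ⟩ := key_pt h hF hn hx1 hy (v := X) (by rw [e1]; exact hex hρ hh.y1)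
    (by rw [e4]; exact hex (mul_ne_zero (inv_ne_zero hl0) hρ') hh.y2)
  set W := act s w with hW
  have hXd : X = (α * ρ) • v1 + (β * ρ') • v2 + W := by
    rw [hX, hu, act_add, act_add, act_smul, act_smul, hs1, hs2, smul_smul, smul_smul]
  have hW1 : hermForm n F q W v1 = 0 := by
    have h1 : hermForm n F q W (ρ • v1) = 0 := by rw [← hs1, hW, herm_act, hw1]
    rw [herm_smul_right] at h1
    exact (mul_eq_zero.1 h1).resolve_left (pow_ne_zero _ hρ)
  have hW2 : hermForm n F q W v2 = 0 := by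
    have h1 : hermForm n F q W (ρ' • v2) = 0 := by rw [← hs2, hW, herm_act, hw2]
    rw [herm_smul_right] at h1
    exact (mul_eq_zero.1 h1).resolve_left (pow_ne_zero _ hρ')
  have hyW : ∀ {v : Fin n → F}, y v = θ • v → hermForm n F q W v = 0 →
      hermForm n F q (y W) v = 0 := by
    intro v hv hWv
    have h1 := hy.1.herm W v
    rw [hWv, map_zero, hv, herm_smul_right] at h1
    exact (mul_eq_zero.1 h1).resolve_left (pow_ne_zero _ hθ)
  have hyW1 := hyW hh.y1 hW1
  have hyW2 := hyW hh.y2 hW2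
  have hyX : y X = (τ (α * ρ) * θ) • v1 + (τ (β * ρ') * θ) • v2 + y W := by
    rw [hXd, hy.1.semi.add, hy.1.semi.add, hy.1.semi.smul, hy.1.semi.smul, hh.y1, hh.y2,
      smul_smul, smul_smul]
  have hω1 : (1 : F) - ω ≠ 0 := sub_ne_zero.2 hω.ne.symm
  have hωq : (1 : F) - ω ^ q ≠ 0 := by
    intro h0
    have h1 := hω.norm
    rw [← sub_eq_zero.1 h0, mul_one] at h1
    exact hω.ne h1
  have hA : τ (α * ρ) * θ = κ * (α * ρ) := by
    have h1 := congrArg (fun v => hermForm n F q v v2) (hyX.symm.trans hκ)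
    rw [hXd] at h1
    simp only [herm_add_left, herm_smul_left, smul_add, hh.i2, hh.h12, hyW2, hW2, mul_zero,
      add_zero] at h1
    apply mul_right_cancel₀ hωq
    linear_combination h1
  have hB : τ (β * ρ') * θ = κ * (β * ρ') := by
    have h1 := congrArg (fun v => hermForm n F q v v1) (hyX.symm.trans hκ)
    rw [hXd] at h1
    simp only [herm_add_left, herm_smul_left, smul_add, hh.i1, hh.h21, hyW1, hW1, mul_zero,
      add_zero, zero_add] at h1
    apply mul_right_cancel₀ hω1
    linear_combination h1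
  refine ⟨?_, ?_⟩
  · apply mul_right_cancel₀ hθ
    linear_combination (β * ρ') * hA - (α * ρ) * hB
  · rintro rfl
    have h1 : θ = κ := by
      have h2 : (1 : F ≃+* F) (α * ρ) = α * ρ := rfl
      rw [h2] at hA
      apply mul_left_cancel₀ (mul_ne_zero hα hρ)
      rw [hA, mul_comm]
    have h2 := hyX.symm.trans hκ
    rw [hXd, hA, hB, smul_add, smul_add, smul_smul, smul_smul] at h2
    rw [h1]
    exact add_left_cancel h2

/-- Cyclic elements against good triples. -/
theorem false_of_cyc (h : ACfg 3 Γ C D) (hF : Fintype.card F = q ^ 2) (hn : 3 ≤ n)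
    (h31 : 3 ∣ q + 1) (hx : Lf C 1 x) (hy : Lf D τ y) {l t : F} {u : Fin n → F}
    (hc : Cyc q x l t u) {b : Fin 3 → (Fin n → F)} {θ θ' : F} (hg : GT q τ y b θ θ') : False := by
  obtain ⟨ω, hω⟩ := exists_om hF h31
  have hτ := hy.auto_cube h.symm hF hn
  obtain ⟨m, v1, v2, hh⟩ := exists_hy hF hy.1 hτ hω hg
  obtain ⟨α, β, w, hα, hβ, hu, hw1, hw2, hww⟩ := hc.decomp hF hx.1
  have hω1 : (1 : F) - ω ≠ 0 := sub_ne_zero.2 hω.ne.symm
  have hωq : (1 : F) - ω ^ q ≠ 0 := by
    intro h0
    have h1 := hω.norm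
    rw [← sub_eq_zero.1 h0, mul_one] at h1
    exact hω.ne h1
  have ht := hc.t0
  have hb := hg.ort
  have b22 : hermForm n F q (b 2) (b 2) = 1 := by rw [hb 2 2]; simp
  have lia : LinearIndependent F ![x u, x (x u)] :=
    li_of_hyp hF (ε := t ^ q) (pow_ne_zero _ ht) (hc.h6 hx.1) (hc.h7 hx.1) (hc.h3 hF hx.1)
  have hpow1 : (1 - ω) ^ q = 1 - ω ^ q := by rw [sub_pow_q hF, one_pow]
  -- the parameters
  have hpar : ∀ ρ : F, ρ ≠ 0 → ∃ ρ' : F, ρ' ≠ 0 ∧ ρ' * ρ ^ q * (1 - ω) = t := by
    intro ρ hρ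
    have h1 : ρ ^ q ≠ 0 := pow_ne_zero _ hρ
    refine ⟨t / (ρ ^ q * (1 - ω)), div_ne_zero ht (mul_ne_zero h1 hω1), ?_⟩
    field_simp
  have hgram : ∀ {ρ ρ' : F}, ρ' * ρ ^ q * (1 - ω) = t →
      hermForm n F q (ρ' • v2) (ρ • v1) = t ∧ hermForm n F q (ρ • v1) (ρ' • v2) = t ^ q := by
    intro ρ ρ' h1
    have h2 : hermForm n F q (ρ' • v2) (ρ • v1) = t := by
      rw [herm_smul_left, herm_smul_right, hh.h21, ← h1]; ring
    exact ⟨h2, by rw [herm_swap hF (ρ' • v2) (ρ • v1), h2]⟩
  have hi1 : ∀ ρ : F, hermForm n F q (ρ • v1) (ρ • v1) = 0 := by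
    intro ρ
    rw [herm_smul_left, herm_smul_right, hh.i1, mul_zero, mul_zero]
  have hi2 : ∀ ρ : F, hermForm n F q (ρ • v2) (ρ • v2) = 0 := by
    intro ρ
    rw [herm_smul_left, herm_smul_right, hh.i2, mul_zero, mul_zero]
  have hpair : ∀ {ρ ρ' : F}, ρ' * ρ ^ q * (1 - ω) = t →
      ∃ s : SU n F q, act s (x u) = ρ • v1 ∧ act s (x (x u)) = ρ' • v2 := by
    intro ρ ρ' h1
    obtain ⟨h2, h3⟩ := hgram h1
    obtain ⟨s, hs⟩ := Cfsg.Agent.H77.Witt.exists_su_ext hF ![x u, x (x u)] ![ρ • v1, ρ' • v2]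
      lia (li_of_hyp hF (ε := t ^ q) (pow_ne_zero _ ht) (hi1 ρ) (hi2 ρ') h3) (by
        intro i j
        fin_cases i <;> fin_cases j
        · exact (hc.h6 hx.1).trans (hi1 ρ).symm
        · exact (hc.h3 hF hx.1).trans h3.symm
        · exact (hc.h2 hx.1).trans h2.symm
        · exact (hc.h7 hx.1).trans (hi2 ρ').symm) (z := b 2) (by rw [b22]; exact one_ne_zero)
      (by
        intro i
        fin_cases i
        · change hermForm n F q (b 2) (ρ • v1) = 0
          rw [herm_smul_right, hh.z1, mul_zero]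
        · change hermForm n F q (b 2) (ρ' • v2) = 0
          rw [herm_smul_right, hh.z2, mul_zero])
    exact ⟨s, hs 0, hs 1⟩
  by_cases hτ1 : τ = 1
  · -- linear case
    subst hτ1
    have hne : θ ≠ θ' := by
      rcases hg.ne with h1 | h1
      · exact absurd rfl h1
      · exact h1
    obtain ⟨ρ', hρ', hpr⟩ := hpar 1 one_ne_zero
    -- an element with `act s w ∈ ⟨b 2⟩`
    have hs : ∃ s : SU n F q, ∃ ξ : F, ξ ≠ 0 ∧ act s (x u) = (1 : F) • v1 ∧
        act s (x (x u)) = ρ' • v2 ∧ act s w = ξ • b 2 := by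
      rcases Nat.lt_or_ge 3 n with h4 | h4
      · obtain ⟨z, hz, hzb⟩ := hb.exists_z hF h4
        obtain ⟨ξ, hξ0, hξ⟩ := exists_norm_eq_ne hF (herm_self_pow hF w) hww
        obtain ⟨h2, h3⟩ := hgram hpr
        have hbw : hermForm n F q (ξ • b 2) (ξ • b 2) = hermForm n F q w w := by
          rw [herm_smul_left, herm_smul_right, b22, mul_one, hξ]
        have li3 : ∀ {a c d : Fin n → F}, LinearIndependent F ![a, c] →
            hermForm n F q d a = 0 → hermForm n F q d c = 0 → hermForm n F q d d ≠ 0 →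
            LinearIndependent F ![a, c, d] := by
          intro a c d hac hda hdc hdd
          rw [li2_iff] at hac
          rw [li3_iff]
          intro i j k hijk
          have h5 : hermForm n F q (i • a + j • c + k • d) d = 0 := by
            rw [hijk, herm_zero_left]
          rw [herm_add_left, herm_add_left, herm_smul_left, herm_smul_left, herm_smul_left,
            herm_eq_zero_swap hF hda, herm_eq_zero_swap hF hdc, mul_zero, mul_zero, zero_add,
            zero_add] at h5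
          have h6 : k = 0 := (mul_eq_zero.1 h5).resolve_right hdd
          subst h6
          rw [zero_smul, add_zero] at hijk
          obtain ⟨h7, h8⟩ := hac i j hijk
          exact ⟨h7, h8, rfl⟩
        obtain ⟨s, hs⟩ := Cfsg.Agent.H77.Witt.exists_su_ext hF ![x u, x (x u), w]
          ![(1 : F) • v1, ρ' • v2, ξ • b 2] (li3 lia hw1 hw2 hww)
          (li3 (li_of_hyp hF (ε := t ^ q) (pow_ne_zero _ ht) (hi1 1) (hi2 ρ') h3)
            (by rw [herm_smul_left, herm_smul_right, hh.z1, mul_zero, mul_zero])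
            (by rw [herm_smul_left, herm_smul_right, hh.z2, mul_zero, mul_zero])
            (by rw [hbw]; exact hww)) (by
            intro i j
            fin_cases i <;> fin_cases j
            · exact (hc.h6 hx.1).trans (hi1 1).symm
            · exact (hc.h3 hF hx.1).trans h3.symm
            · change hermForm n F q (x u) w = hermForm n F q ((1 : F) • v1) (ξ • b 2)
              rw [herm_eq_zero_swap hF hw1, herm_smul_left, herm_smul_right,
                herm_eq_zero_swap hF hh.z1, mul_zero, mul_zero]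
            · exact (hc.h2 hx.1).trans h2.symm
            · exact (hc.h7 hx.1).trans (hi2 ρ').symm
            · change hermForm n F q (x (x u)) w = hermForm n F q (ρ' • v2) (ξ • b 2)
              rw [herm_eq_zero_swap hF hw2, herm_smul_left, herm_smul_right,
                herm_eq_zero_swap hF hh.z2, mul_zero, mul_zero]
            · change hermForm n F q w (x u) = hermForm n F q (ξ • b 2) ((1 : F) • v1)
              rw [hw1, herm_smul_left, herm_smul_right, hh.z1, mul_zero, mul_zero]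
            · change hermForm n F q w (x (x u)) = hermForm n F q (ξ • b 2) (ρ' • v2)
              rw [hw2, herm_smul_left, herm_smul_right, hh.z2, mul_zero, mul_zero]
            · exact hbw.symm) hz (by
            intro i
            fin_cases i
            · change hermForm n F q z ((1 : F) • v1) = 0
              rw [hh.d1, one_smul, herm_add_right hF, herm_smul_right, hzb, hzb, mul_zero,
                add_zero]
            · change hermForm n F q z (ρ' • v2) = 0
              rw [hh.d2, herm_smul_right, herm_add_right hF, herm_smul_right, hzb, hzb, mul_zero,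
                add_zero, mul_zero]
            · change hermForm n F q z (ξ • b 2) = 0
              rw [herm_smul_right, hzb, mul_zero])
        exact ⟨s, ξ, hξ0, hs 0, hs 1, hs 2⟩
      · have hn3 : n = 3 := by omega
        subst hn3
        obtain ⟨s, hs1, hs2⟩ := hpair hpr
        have hW1 : hermForm 3 F q (act s w) v1 = 0 := by
          have : v1 = act s (x u) := by rw [hs1, one_smul]
          rw [this, herm_act, hw1]
        have hW2 : hermForm 3 F q (act s w) v2 = 0 := by
          have h1 : hermForm 3 F q (act s w) (ρ' • v2) = 0 := by rw [← hs2, herm_act, hw2]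
          rw [herm_smul_right] at h1
          exact (mul_eq_zero.1 h1).resolve_left (pow_ne_zero _ hρ')
        rw [hh.d1, herm_add_right hF, herm_smul_right] at hW1
        rw [hh.d2, herm_add_right hF, herm_smul_right, mul_pow] at hW2
        have hmq : m ^ q ≠ 0 := pow_ne_zero _ hh.l0
        have hWb1 : hermForm 3 F q (act s w) (b 1) = 0 := by
          have h1 : m ^ q * (1 - ω ^ q) * hermForm 3 F q (act s w) (b 1) = 0 := by
            linear_combination hW1 - hW2
          exact (mul_eq_zero.1 h1).resolve_left (mul_ne_zero hmq hωq)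
        have hWb0 : hermForm 3 F q (act s w) (b 0) = 0 := by
          rw [hWb1, mul_zero, add_zero] at hW1
          exact hW1
        have hexp := hb.expand hF (act s w)
        rw [Fin.sum_univ_three, hWb0, hWb1, zero_smul, zero_smul, zero_add, zero_add] at hexp
        refine ⟨s, _, ?_, hs1, hs2, hexp⟩
        intro h0
        rw [h0, zero_smul, act_eq_zero] at hexp
        apply hww
        rw [hexp, herm_zero_left]
    obtain ⟨s, ξ, hξ, hs1, hs2, hsw⟩ := hs
    obtain ⟨-, h1⟩ := cyc_core h hF hn hx hy hc hω hg hh one_ne_zero hρ' hs1 hs2 hα hβ hu hw1 hw2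
    have h2 := h1 rfl
    rw [hsw, hy.1.semi.smul, hg.e2] at h2
    have h3 := congrArg (fun v => hermForm n F q v (b 2)) h2
    simp only [herm_smul_left, b22, mul_one] at h3
    apply hne
    have h4 : (1 : F ≃+* F) ξ = ξ := rfl
    rw [h4, mul_comm θ] at h3
    exact (mul_left_cancel₀ hξ h3).symm
  · -- semilinear case
    obtain ⟨c, hcq, hc0, hcτ⟩ := exists_move hF hτ hτ1
    obtain ⟨ρ, hρ0, hρ⟩ := exists_norm_eq_ne hF hcq hc0
    have key : ∀ ρ : F, ρ ≠ 0 → τ (α * (1 - ω) / (β * t) * (ρ * ρ ^ q))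
        = α * (1 - ω) / (β * t) * (ρ * ρ ^ q) := by
      intro ρ hρ
      obtain ⟨ρ', hρ', hpr⟩ := hpar ρ hρ
      obtain ⟨s, hs1, hs2⟩ := hpair hpr
      obtain ⟨h1, -⟩ := cyc_core h hF hn hx hy hc hω hg hh hρ hρ' hs1 hs2 hα hβ hu hw1 hw2
      have hρq : ρ ^ q ≠ 0 := pow_ne_zero _ hρ
      have h2 : α * (1 - ω) / (β * t) * (ρ * ρ ^ q) = (α * ρ) / (β * ρ') := by
        rw [← hpr]
        field_simp
      rw [h2, map_div₀, div_eq_div_iff ((map_ne_zero τ).2 (mul_ne_zero hβ hρ'))
        (mul_ne_zero hβ hρ'), h1]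
      ring
    set g := α * (1 - ω) / (β * t) with hgd
    have hg0 : g ≠ 0 := div_ne_zero (mul_ne_zero hα hω1) (mul_ne_zero hβ ht)
    have h1 := key 1 one_ne_zero
    rw [one_pow, mul_one, mul_one] at h1
    have h2 := key ρ hρ0
    rw [hρ, map_mul, h1] at h2
    exact hcτ (mul_left_cancel₀ hg0 h2)

end Cfsg.Agent.H874.Wf
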