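import Cfsg.Agent.H874.Wf.Rad
import Cfsg.Agent.H957.T5U7

/-!
# Independence of automorphisms; common eigenpoints (S3826, row PSU)
-/

set_option autoImplicit false
set_option linter.unusedSectionVars false

namespace Cfsg.Agent.H874.Wf

theorem ind_auto {k : Type*} [Field k] {m : ℕ} (f : Fin m → (k ≃+* k))
    (hf : Function.Injective f) (c : Fin m → k) (h : ∀ x, ∑ i, c i * f i x = 0) :
    ∀ i, c i = 0 := by
  have h1 := linearIndependent_monoidHom k k
  let g : Fin m → (k →* k) := fun i => ((f i : k →+* k) : k →* k)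
  have hg : Function.Injective g := by
    intro i j hij
    apply hf
    ext x
    exact DFunLike.congr_fun hij x
  have h2 := Fintype.linearIndependent_iff.1 (h1.comp g hg) c
  apply h2
  funext x
  have h3 := h x
  simp only [Function.comp_apply, Finset.sum_apply, Pi.smul_apply, smul_eq_mul, Pi.zero_apply]
  exact h3

theorem ded {k : Type*} [Field k] {σ τ : k ≃+* k} (hσ : σ ^ 3 = 1) (hτ : τ ^ 3 = 1) {a b : k}
    (ha : a ≠ 0) (hA : σ ≠ 1 ∨ a ≠ 1) (hB : τ ≠ 1 ∨ b ≠ 1)
    (h : ∀ x, a * σ (b * τ x - x) = b * τ x - x) : False := by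
  have fixall : ∀ {θ : k ≃+* k} {e : k}, (∀ x, e * θ x = x) → θ = 1 ∧ e = 1 := by
    intro θ e he
    have h1 : e = 1 := by simpa using he 1
    refine ⟨?_, h1⟩
    ext x
    have := he x
    rw [h1, one_mul] at this
    exact this
  by_cases hσ1 : σ = 1
  · subst hσ1
    have ha1 : a ≠ 1 := by simpa using hA
    have h1 : ∀ x, b * τ x = x := by
      intro x
      have h2 := h x
      have h3 : (a - 1) * (b * τ x - x) = 0 := by
        have : (1 : k ≃+* k) (b * τ x - x) = b * τ x - x := rfl
        rw [this] at h2
        linear_combination h2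
      exact sub_eq_zero.1 ((mul_eq_zero.1 h3).resolve_left (sub_ne_zero.2 ha1))
    obtain ⟨h2, h3⟩ := fixall h1
    rcases hB with hB | hB
    · exact hB h2
    · exact hB h3
  by_cases hτ1 : τ = 1
  · subst hτ1
    have hb1 : b ≠ 1 := by simpa using hB
    have h1 : ∀ y, a * σ y = y := by
      intro y
      have h2 := h ((b - 1)⁻¹ * y)
      have e1 : b * (1 : k ≃+* k) ((b - 1)⁻¹ * y) - (b - 1)⁻¹ * y = y := by
        have : (1 : k ≃+* k) ((b - 1)⁻¹ * y) = (b - 1)⁻¹ * y := rfl
        rw [this]
        have hb : b - 1 ≠ 0 := sub_ne_zero.2 hb1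
        field_simp
      rwa [e1] at h2
    exact hσ1 (fixall h1).1
  have hid : ∀ x, a * σ b * (σ * τ) x - a * σ x - b * τ x + x = 0 := by
    intro x
    have h1 := h x
    rw [map_sub, map_mul] at h1
    have e1 : (σ * τ) x = σ (τ x) := rfl
    rw [e1]
    linear_combination h1
  have hσ2 : σ ^ 2 ≠ 1 := by
    intro h2
    apply hσ1
    rw [pow_succ, h2, one_mul] at hσ
    exact hσ
  by_cases hστ : σ * τ = 1
  · have hne : σ ≠ τ := by
      rintro rfl
      exact hσ2 (by rw [pow_two, hστ])
    have h1 := ind_auto ![1, σ, τ] (by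
      intro i j hij
      fin_cases i <;> fin_cases j <;> first | rfl | (exfalso; revert hij) <;>
        simp [Ne.symm hσ1, Ne.symm hτ1, hσ1, hτ1, hne, Ne.symm hne]) ![a * σ b + 1, -a, -b] (by
      intro x
      have h2 := hid x
      rw [hστ] at h2
      simp only [Fin.sum_univ_three, Matrix.cons_val_zero, Matrix.cons_val_one, Matrix.cons_val_two,
        Matrix.head_cons, Matrix.tail_cons, Matrix.cons_val]
      have e1 : (1 : k ≃+* k) x = x := rfl
      rw [e1] at h2 ⊢
      linear_combination h2)
    have h2 := h1 1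
    simp at h2
    exact ha h2
  · by_cases hne : σ = τ
    · subst hne
      have h0 : σ * σ ≠ σ := by
        intro h1
        exact hσ1 (mul_left_cancel (a := σ) (by rw [h1, mul_one]))
      have h1 := ind_auto ![1, σ, σ * σ] (by
        intro i j hij
        fin_cases i <;> fin_cases j <;> first | rfl | (exfalso; revert hij) <;>
          simp [Ne.symm hσ1, hσ1, hστ, Ne.symm hστ, h0, Ne.symm h0]) ![1, -a - b, a * σ b] (by
        intro x
        have h2 := hid x
        simp only [Fin.sum_univ_three, Matrix.cons_val_zero, Matrix.cons_val_one,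
          Matrix.cons_val_two, Matrix.head_cons, Matrix.tail_cons, Matrix.cons_val]
        have e1 : (1 : k ≃+* k) x = x := rfl
        rw [e1]
        linear_combination h2)
      have h2 := h1 0
      simp at h2
    · have h01 : σ * τ ≠ σ := by
        intro h1
        exact hτ1 (mul_left_cancel (a := σ) (by rw [h1, mul_one]))
      have h02 : σ * τ ≠ τ := by
        intro h1
        exact hσ1 (mul_right_cancel (b := τ) (by rw [h1, one_mul]))
      have h1 := ind_auto ![1, σ, τ, σ * τ] (by
        intro i j hij
        fin_cases i <;> fin_cases j <;> first | rfl | (exfalso; revert hij) <;>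
          simp [Ne.symm hσ1, hσ1, hτ1, Ne.symm hτ1, hστ, Ne.symm hστ, h01, h02, Ne.symm h01,
            Ne.symm h02, hne, Ne.symm hne]) ![1, -a, -b, a * σ b] (by
        intro x
        have h2 := hid x
        simp only [Fin.sum_univ_four, Matrix.cons_val_zero, Matrix.cons_val_one,
          Matrix.cons_val_two, Matrix.head_cons, Matrix.tail_cons, Matrix.cons_val]
        have e1 : (1 : k ≃+* k) x = x := rfl
        rw [e1]
        linear_combination h2)
      have h2 := h1 0
      simp at h2

end Cfsg.Agent.H874.Wf
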