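import Cfsg.Agent.H874.Wf.Ded

/-!
# Common isotropic eigenpoints, good triples (S3826, row PSU)
-/

set_option autoImplicit false
set_option linter.unusedSectionVars false

namespace Cfsg.Agent.H874.Wf

open Cfsg Cfsg.Agent.LieClassical.HermBasic Cfsg.Agent.LieClassical.HermSiegel
open Cfsg.Agent.LieClassical.SUBasic Matrix
open Cfsg.Agent.ClassicalGeometry.PSUAutCount Cfsg.Agent.ClassicalGeometry.UnitAutBasic
open Cfsg.Agent.H957.T5V Cfsg.Agent.H957.T5U
open Cfsg.Agent.H177.MeetPSU (rho rho_apply rho_injective yy yy_apply ind_yy uniq ind_scal)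
open Cfsg.Agent.H903.SylSemi (Ind scal scal_apply)
open Cfsg.Agent.H967.CopMat (Fx mem_Fx card_Fx)
open Cfsg.Agent.H533.Wf

variable {F : Type} [Field F] [Fintype F] {n q : ℕ}
variable {Γ : Subgroup (MulAut (PSU n F q))} {C D : Set (MulAut (PSU n F q))}
  {σ τ : F ≃+* F} {x y : Equiv.Perm (Fin n → F)}

/-! ### Field automorphisms of order 3 -/

theorem orderOf_three (hσ : σ ^ 3 = 1) (h1 : σ ≠ 1) : orderOf σ = 3 := by
  have : Fact (Nat.Prime 3) := ⟨Nat.prime_three⟩
  exact orderOf_eq_prime hσ h1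

theorem card_pow_eq_le {m : ℕ} (hm : 2 ≤ m) : Nat.card {y : F // y ^ m = y} ≤ m := by
  classical
  let P : Polynomial F := Polynomial.X ^ m - Polynomial.X
  have hdeg : P.natDegree = m := by
    have h1 : (Polynomial.X : Polynomial F).degree < (Polynomial.X ^ m : Polynomial F).degree := by
      rw [Polynomial.degree_X, Polynomial.degree_X_pow]
      exact_mod_cast hm
    have h2 : P.degree = m := by
      change (Polynomial.X ^ m - Polynomial.X : Polynomial F).degree = m
      rw [Polynomial.degree_sub_eq_left_of_degree_lt h1, Polynomial.degree_X_pow]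
    exact Polynomial.natDegree_eq_of_degree_eq_some h2
  have hP0 : P ≠ 0 := by
    intro h
    rw [h, Polynomial.natDegree_zero] at hdeg
    omega
  have h1 : Nat.card {y : F // y ^ m = y} ≤ Nat.card P.roots.toFinset := by
    refine Nat.card_le_card_of_injective (fun y => ⟨y.1, ?_⟩) (fun a b hab => ?_)
    · rw [Multiset.mem_toFinset, Polynomial.mem_roots hP0, Polynomial.IsRoot.def]
      change Polynomial.eval y.1 (Polynomial.X ^ m - Polynomial.X) = 0
      rw [Polynomial.eval_sub, Polynomial.eval_pow, Polynomial.eval_X, y.2, sub_self]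
    · exact Subtype.ext (congrArg (fun z => z.1) hab)
  refine h1.trans ?_
  rw [Nat.card_eq_fintype_card, Fintype.card_coe]
  exact (Multiset.toFinset_card_le _).trans ((Polynomial.card_roots' P).trans hdeg.le)

theorem fix_common (hF : Fintype.card F = q ^ 2) (hσ : orderOf σ = 3) (hτ : orderOf τ = 3)
    {a : F} (ha : σ a = a) : τ a = a := by
  obtain ⟨q0, hq, h0⟩ := exists_q0 hF Nat.prime_three (by norm_num) hσ
  obtain ⟨q1, hq', h1⟩ := exists_q0 hF Nat.prime_three (by norm_num) hτ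
  have h01 : q0 = q1 := Nat.pow_left_injective (n := 3) (by norm_num) (hq.symm.trans hq')
  subst h01
  have hq2 := two_le hF
  have hm : 2 ≤ q0 ^ 2 := by
    rcases q0 with _ | _ | m
    · simp at hq; omega
    · simp at hq; omega
    · have h5 : 2 ^ 2 ≤ (m + 1 + 1) ^ 2 := Nat.pow_le_pow_left (by omega) 2
      omega
  have key : ∀ {θ : F ≃+* F}, Nat.card (Fx θ) = q0 ^ 2 → ∀ b : Fx θ, (b : F) ^ q0 ^ 2 = b := by
    intro θ h b
    have : Fintype (Fx θ) := Fintype.ofFinite _
    have h2 := FiniteField.pow_card b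
    rw [← Nat.card_eq_fintype_card, h] at h2
    exact congrArg (fun z : Fx θ => (z : F)) h2
  let f : Fx τ → {y : F // y ^ q0 ^ 2 = y} := fun b => ⟨b, key h1 b⟩
  have hf : Function.Injective f := fun b b' hbb => Subtype.ext (congrArg (fun z => z.1) hbb)
  have hfs : Function.Surjective f := by
    have h2 : Nat.card (Fx τ) = Nat.card {y : F // y ^ q0 ^ 2 = y} :=
      le_antisymm (Nat.card_le_card_of_injective f hf) (by rw [h1]; exact card_pow_eq_le hm)
    exact ((Nat.bijective_iff_injective_and_card f).2 ⟨hf, h2⟩).2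
  obtain ⟨b, hb⟩ := hfs ⟨a, key h0 ⟨a, ha⟩⟩
  have h3 : (b : F) = a := congrArg (fun z => z.1) hb
  rw [← h3]
  exact b.2

/-- A common solution of `λ ^ (q + 1) = -1`. -/
theorem exists_lam (hF : Fintype.card F = q ^ 2) (hσ : σ ^ 3 = 1) (hτ : τ ^ 3 = 1) :
    ∃ l : F, l * l ^ q = -1 ∧ σ l = l ∧ τ l = l := by
  have hm1 : (-1 : F) ^ q = -1 := by rw [neg_pow_q hF, one_pow]
  have hm0 : (-1 : F) ≠ 0 := neg_ne_zero.2 one_ne_zero
  by_cases h1 : σ = 1
  · subst h1
    by_cases h2 : τ = 1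
    · subst h2
      obtain ⟨l, hl⟩ := exists_norm_eq hF hm1
      exact ⟨l, hl, rfl, rfl⟩
    · obtain ⟨l, -, hl, hl'⟩ := norm_fix hF Nat.prime_three (by norm_num) (orderOf_three hτ h2)
        hm0 (by rw [map_neg, map_one]) hm1
      exact ⟨l, hl', rfl, hl⟩
  · obtain ⟨l, -, hl, hl'⟩ := norm_fix hF Nat.prime_three (by norm_num) (orderOf_three hσ h1)
      hm0 (by rw [map_neg, map_one]) hm1
    refine ⟨l, hl', hl, ?_⟩
    by_cases h2 : τ = 1
    · subst h2; rfl
    · exact fix_common hF (orderOf_three hσ h1) (orderOf_three hτ h2) hl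

theorem rK_ne (hF : Fintype.card F = q ^ 2) (hσ : σ ^ 3 = 1) (h1 : σ ≠ 1) : rK hF σ ≠ 1 := by
  intro h
  apply h1
  ext a
  by_contra hne
  have hfix : ∀ t : F, t ^ q = t → σ t = t := by
    intro t ht
    have h2 := RingEquiv.congr_fun h ⟨t, (mem_Kq hF).2 ht⟩
    exact congrArg (fun z : Kq hF => (z : F)) h2
  have hT := hfix (a + a ^ q) (trace_pow_q hF a)
  have hN := hfix (a * a ^ q) (norm_pow_q hF a)
  rw [map_add, map_pow] at hT
  rw [map_mul, map_pow] at hN
  have h2 : (σ a - a) * (σ a - a ^ q) = 0 := by linear_combination (σ a) * hT - hN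
  have h3 : σ a = a ^ q := sub_eq_zero.1 ((mul_eq_zero.1 h2).resolve_left (sub_ne_zero.2 hne))
  have h4 : σ (σ a) = a := by rw [h3, map_pow, h3, pow_q_pow_q hF]
  have h5 : σ (σ (σ a)) = a := by
    have := RingEquiv.congr_fun hσ a
    exact this
  rw [h4] at h5
  exact hne h5

theorem rK_pow (hF : Fintype.card F = q ^ 2) (hσ : σ ^ 3 = 1) : rK hF σ ^ 3 = 1 := by
  ext a
  exact RingEquiv.congr_fun hσ (a : F)

theorem exists_move (hF : Fintype.card F = q ^ 2) (hσ : σ ^ 3 = 1) (h1 : σ ≠ 1) :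
    ∃ t : F, t ^ q = t ∧ t ≠ 0 ∧ σ t ≠ t := by
  by_contra hcon
  push Not at hcon
  apply rK_ne hF hσ h1
  ext a
  change σ (a : F) = a
  by_cases h0 : (a : F) = 0
  · rw [h0, map_zero]
  · exact hcon a a.2 h0

/-! ### Isotropic eigenpoints -/

/-- An isotropic eigenpoint such that `x` acts nontrivially on its transvection group. -/
def IP (q : ℕ) (σ : F ≃+* F) (x : Equiv.Perm (Fin n → F)) : Prop :=
  ∃ (v : Fin n → F) (α : F), v ≠ 0 ∧ hermForm n F q v v = 0 ∧ x v = α • v ∧
    (σ ≠ 1 ∨ α * α ^ q ≠ 1)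

theorem conj_apply' (s : SU n F q) (y : Equiv.Perm (Fin n → F)) (u : Fin n → F) :
    (rho n F q s * y * (rho n F q s)⁻¹) (act s u) = act s (y u) := by
  rw [Equiv.Perm.mul_apply, Equiv.Perm.mul_apply, ← rho_apply, inv_apply_self, rho_apply]

theorem false_of_IP (h : ACfg 3 Γ C D) (hF : Fintype.card F = q ^ 2) (hn : 3 ≤ n)
    (h3 : (3 : F) ≠ 0) (hx : Lf C σ x) (hy : Lf D τ y) (h1 : IP q σ x) (h2 : IP q τ y) :
    False := by
  obtain ⟨v, α, hv0, hvv, hxv, hα⟩ := h1
  obtain ⟨v', β, hv0', hvv', hyv', hβ⟩ := h2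
  have hli : ∀ {u : Fin n → F}, u ≠ 0 → LinearIndependent F ![u] := by
    intro u hu
    rw [linearIndependent_unique_iff]
    exact hu
  obtain ⟨z, hz, hzz⟩ := Cfsg.Agent.H77.Geom.exists_nonisotropic (q := q) hF (hli hv0) (by omega)
  obtain ⟨s, hs⟩ := Cfsg.Agent.H77.Witt.exists_su_ext hF ![v'] ![v] (hli hv0') (hli hv0) (by
    intro i j
    fin_cases i; fin_cases j
    exact hvv'.trans hvv.symm) hzz (fun i => hz _ ⟨i, rfl⟩)
  have hs0 : act s v' = v := hs 0
  have hy1 := hy.conj h.symm s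
  have hyv : (rho n F q s * y * (rho n F q s)⁻¹) v = β • v := by
    rw [← hs0, conj_apply', hyv', act_smul]
  have key := fun {μ : F} => act_trans h hF hn h3 hx hy1 hv0 hvv hxv hyv (μ := μ)
  obtain ⟨ε, hε0, hε⟩ := exists_trace_zero_ne hF
  have hεq : ε ^ q = -ε := by linear_combination hε
  have hα0 := eig_ne_zero hx.1 hv0 hxv
  have hβ0 := eig_ne_zero hy1.1 hv0 hyv
  have hσ := hx.auto_cube h hF hn
  have hτ := hy.auto_cube h.symm hF hn
  have hmem : ∀ {θ : F ≃+* F} {a : F}, a * a ^ q * (θ ε / ε) ∈ Kq hF := by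
    intro θ a
    rw [mem_Kq, mul_pow, norm_pow_q hF, div_pow, ← map_pow, hεq, map_neg, neg_div_neg_eq]
  let a : Kq hF := ⟨α * α ^ q * (σ ε / ε), hmem⟩
  let b : Kq hF := ⟨β * β ^ q * (τ ε / ε), hmem⟩
  refine ded (rK_pow hF hσ) (rK_pow hF hτ) (a := a) (b := b) ?_ ?_ ?_ ?_
  · intro h0
    have h1 : α * α ^ q * (σ ε / ε) = 0 := congrArg (fun z : Kq hF => (z : F)) h0
    have h2 : σ ε ≠ 0 := (map_ne_zero σ).2 hε0
    rcases mul_eq_zero.1 h1 with h3 | h3
    · exact hα0 ((norm_eq_zero hF).1 h3)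
    · exact div_ne_zero h2 hε0 h3
  · by_cases h1 : σ = 1
    · right
      intro h2
      have h4 : α * α ^ q * (σ ε / ε) = 1 := congrArg (fun z : Kq hF => (z : F)) h2
      subst h1
      have h5 : (1 : F ≃+* F) ε = ε := rfl
      rw [h5, div_self hε0, mul_one] at h4
      rcases hα with h6 | h6
      · exact h6 rfl
      · exact h6 h4
    · left
      exact rK_ne hF hσ h1
  · by_cases h1 : τ = 1
    · right
      intro h2
      have h4 : β * β ^ q * (τ ε / ε) = 1 := congrArg (fun z : Kq hF => (z : F)) h2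
      subst h1
      have h5 : (1 : F ≃+* F) ε = ε := rfl
      rw [h5, div_self hε0, mul_one] at h4
      rcases hβ with h6 | h6
      · exact h6 rfl
      · exact h6 h4
    · left
      exact rK_ne hF hτ h1
  · intro t
    apply Subtype.ext
    have h4 : (t : F) ^ q = t := t.2
    have h5 := key (μ := ε * t) (by rw [mul_pow, hεq, h4]; ring)
    change α * α ^ q * (σ ε / ε) * σ (β * β ^ q * (τ ε / ε) * τ t - t)
      = β * β ^ q * (τ ε / ε) * τ t - t
    have h6 : β * β ^ q * τ (ε * t) - ε * t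
        = ε * (β * β ^ q * (τ ε / ε) * τ t - t) := by
      rw [map_mul]
      field_simp
    rw [h6, map_mul] at h5
    generalize β * β ^ q * (τ ε / ε) * τ t - t = δ at h5 ⊢
    have h7 : ε * (α * α ^ q * (σ ε / ε) * σ δ) = ε * δ := by
      rw [← h5]
      field_simp
    exact mul_left_cancel₀ hε0 h7

end Cfsg.Agent.H874.Wf
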