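import Cfsg.Agent.H533.Wf.Aut
import Cfsg.Agent.H957.T5U9
import Cfsg.Agent.H957.T5Tr

/-!
# Lifts of the elements of a minimal configuration of `PSU_n(q)` (S3826, row PSU, cross
characteristic)
-/

set_option autoImplicit false
set_option linter.unusedSectionVars false

namespace Cfsg.Agent.H874.Wf

open Cfsg Cfsg.Agent.LieClassical.HermBasic Cfsg.Agent.LieClassical.HermSiegel
open Cfsg.Agent.LieClassical.SUBasic Matrix
open Cfsg.Agent.ClassicalGeometry.PSUAutCount Cfsg.Agent.ClassicalGeometry.UnitAutBasic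
open Cfsg.Agent.H957.T5V Cfsg.Agent.H957.T5U
open Cfsg.Agent.H177.MeetPSU (rho rho_apply rho_injective yy yy_apply ind_yy uniq ind_scal)
open Cfsg.Agent.H903.SylSemi (Ind scal scal_apply)
open Cfsg.Agent.H533.Wf

variable {F : Type} [Field F] [Fintype F] {n q : ℕ}

/-- `x` is a semilinear isometry inducing an element of `C`. -/
def Lf (C : Set (MulAut (PSU n F q))) (σ : F ≃+* F) (x : Equiv.Perm (Fin n → F)) : Prop :=
  SI q σ x ∧ ∃ c ∈ C, Ind (pr n F q) (rho n F q) x c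

variable {Γ : Subgroup (MulAut (PSU n F q))} {C D : Set (MulAut (PSU n F q))}
  {σ τ : F ≃+* F} {x y : Equiv.Perm (Fin n → F)}

omit [Fintype F] in
theorem SI.semiU (hx : SI q σ x) : Cfsg.Agent.H903.SylSemi.SemiU F n q x :=
  ⟨σ, 1, one_ne_zero, ⟨hx.semi.add, hx.semi.smul⟩, fun u v => by rw [one_mul, hx.herm]⟩

theorem scal_of_ind (hF : Fintype.card F = q ^ 2) (hn : 3 ≤ n) (hx : SI q σ x)
    (h : Ind (pr n F q) (rho n F q) x 1) : IsScal F x := by
  obtain ⟨a, rfl⟩ := uniq hF hn (SI.semiU hx) h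
  exact ⟨a, fun v => rfl⟩

theorem exists_lift (hF : Fintype.card F = q ^ 2) (hn : 3 ≤ n) (h32 : ¬ (n = 3 ∧ q = 2))
    {c : MulAut (PSU n F q)} (hc : c ∈ C) : ∃ (σ : F ≃+* F) (x : Equiv.Perm (Fin n → F)),
      Lf C σ x := by
  obtain ⟨A, θ, rfl⟩ := Cfsg.Agent.ClassicalGeometry.PSUAutMain.exists_toAut hF hn h32 c
  refine ⟨θ, yy A θ, ⟨⟨fun u v => ?_, fun a v => ?_⟩, fun u v => herm_semi A θ u v⟩, _, hc,
    ind_yy A θ⟩
  · rw [yy_apply, yy_apply, yy_apply, ← Matrix.mulVec_add]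
    congr 1
    funext i
    exact map_add θ _ _
  · rw [yy_apply, yy_apply, ← Matrix.mulVec_smul]
    congr 1
    funext i
    exact map_mul θ _ _

theorem Lf.conj (h : ACfg 3 Γ C D) (hx : Lf C σ x) (s : SU n F q) :
    Lf C σ (rho n F q s * x * (rho n F q s)⁻¹) := by
  obtain ⟨h1, c, hc, hi⟩ := hx
  refine ⟨h1.conj s, MulAut.conj (pr n F q s) * c * (MulAut.conj (pr n F q s))⁻¹,
    h.conjC _ (h.inn ⟨_, rfl⟩) _ hc, ?_⟩
  have e1 : (rho n F q s)⁻¹ = rho n F q s⁻¹ := (map_inv _ s).symm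
  have e2 : (MulAut.conj (pr n F q s))⁻¹ = MulAut.conj (pr n F q s⁻¹) := by
    rw [map_inv (pr n F q), map_inv]
  rw [e1, e2]
  exact ((Ind.conj _ _ s).mul hi).mul (Ind.conj _ _ s⁻¹)

theorem Lf.smulA (hx : Lf C σ x) {s : Fˣ} (hs : (s : F) * (s : F) ^ q = 1) :
    Lf C σ (smulA s x) := by
  obtain ⟨h1, c, hc, hi⟩ := hx
  refine ⟨h1.smulA hs, c, hc, ?_⟩
  have h2 : Cfsg.Agent.H957.T5V.smulA s x = scal F (Fin n → F) s * x := by
    ext v
    rfl
  rw [h2]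
  have := (ind_scal (n := n) (q := q) s).mul hi
  rwa [one_mul] at this

theorem ord_eq (h : ACfg 3 Γ C D) {c : MulAut (PSU n F q)} (hc : c ∈ C) : c ^ 3 = 1 := by
  rw [← h.ordC c hc, pow_orderOf_eq_one]

theorem ne_one (h : ACfg 3 Γ C D) {c : MulAut (PSU n F q)} (hc : c ∈ C) : c ≠ 1 := by
  rintro rfl
  have := h.ordC 1 hc
  rw [orderOf_one] at this
  omega

theorem Lf.cube (h : ACfg 3 Γ C D) (hF : Fintype.card F = q ^ 2) (hn : 3 ≤ n)
    (hx : Lf C σ x) : IsScal F (x ^ 3) := by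
  obtain ⟨h1, c, hc, hi⟩ := hx
  have h2 := hi.pow 3
  rw [ord_eq h hc] at h2
  exact scal_of_ind hF hn (h1.pow 3) h2

theorem Lf.not_scal (h : ACfg 3 Γ C D) (hn : 3 ≤ n) (hx : Lf C σ x) :
    ¬ IsScal F x := by
  obtain ⟨h1, c, hc, hi⟩ := hx
  intro hs
  have : Nonempty (Fin n) := ⟨⟨0, by omega⟩⟩
  have : Nontrivial (Fin n → F) := Function.nontrivial
  obtain ⟨a, rfl⟩ := Cfsg.Agent.H957.T5Tr.exists_scal hs
  exact ne_one h hc (Ind.unique pr_surjective rho_injective hi (ind_scal a))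

omit [Fintype F] in
theorem isScal_ne_zero (hn : 3 ≤ n) {a : F} (ha : ∀ v, x v = a • v) : a ≠ 0 := by
  rintro rfl
  have h1 : x (Pi.single ⟨0, by omega⟩ 1) = x 0 := by rw [ha, ha, zero_smul, zero_smul]
  have h2 := congrFun (x.injective h1) ⟨0, by omega⟩
  simp at h2

theorem Lf.auto_cube (h : ACfg 3 Γ C D) (hF : Fintype.card F = q ^ 2) (hn : 3 ≤ n)
    (hx : Lf C σ x) : σ ^ 3 = 1 := by
  obtain ⟨l, hl⟩ := hx.cube h hF hn
  have hl0 := isScal_ne_zero hn hl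
  have hsemi := hx.1.semi.pow 3
  ext a
  have h1 := hsemi.smul a (Pi.single ⟨0, by omega⟩ 1)
  rw [hl, hl] at h1
  have h2 := congrFun h1 ⟨0, by omega⟩
  simp only [Pi.smul_apply, Pi.single_eq_same, smul_eq_mul, mul_one] at h2
  rw [mul_comm l a] at h2
  exact (mul_right_cancel₀ hl0 h2).symm

/-- Points: if `y` fixes the points `⟨x v⟩` and `⟨x⁻¹ v⟩` then it fixes `⟨v⟩`. -/
theorem key_pt (h : ACfg 3 Γ C D) (hF : Fintype.card F = q ^ 2) (hn : 3 ≤ n)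
    (hx : Lf C σ x) (hy : Lf D τ y) {v : Fin n → F}
    (h1 : ∃ a : F, y (x v) = a • x v) (h2 : ∃ a : F, y (x⁻¹ v) = a • x⁻¹ v) :
    ∃ a : F, y v = a • v := by
  have hfinP : Finite (PSU n F q) := Finite.of_surjective _ (pr_surjective (n := n) (F := F) (q := q))
  let M : Subgroup (MulAut (PSU n F q)) :=
    { carrier := {β | ∃ (θ : F ≃+* F) (z : Equiv.Perm (Fin n → F)) (a : F), SI q θ z ∧
        Ind (pr n F q) (rho n F q) z β ∧ a ≠ 0 ∧ z v = a • v}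
      mul_mem' := by
        rintro β β' ⟨θ, z, a, h1, h2, ha, h3⟩ ⟨θ', z', a', h1', h2', ha', h3'⟩
        refine ⟨θ * θ', z * z', θ a' * a, h1.mul h1', h2.mul h2',
          mul_ne_zero ((map_ne_zero θ).2 ha') ha, ?_⟩
        rw [Equiv.Perm.mul_apply, h3', h1.semi.smul, h3, smul_smul]
      one_mem' := ⟨1, 1, 1, SI.one, Ind.one _ _, one_ne_zero, by rw [one_smul]; rfl⟩
      inv_mem' := by
        rintro β ⟨θ, z, a, h1, h2, ha, h3⟩
        refine ⟨θ⁻¹, z⁻¹, θ⁻¹ a⁻¹, h1.inv, h2.inv, ?_, ?_⟩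
        · exact (map_ne_zero θ⁻¹).2 (inv_ne_zero ha)
        · apply z.injective
          rw [apply_inv_self, h1.semi.smul, h3, smul_smul]
          have : θ (θ⁻¹ a⁻¹) = a⁻¹ := RingEquiv.apply_symm_apply θ _
          rw [this, inv_mul_cancel₀ ha, one_smul] }
  have hvv : v = 0 ∨ v ≠ 0 := eq_or_ne v 0
  rcases hvv with rfl | hv0
  · exact ⟨1, by rw [hy.1.semi.zero, smul_zero]⟩
  obtain ⟨hx1, c, hc, hxi⟩ := hx
  obtain ⟨hy1, d, hd, hyi⟩ := hy
  have hmem : d ∈ M := by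
    refine h.key3 hc hd ?_ ?_
    · obtain ⟨a, ha⟩ := h2
      have ha0 : a ≠ 0 := by
        rintro rfl
        rw [zero_smul] at ha
        apply hv0
        apply x⁻¹.injective
        apply y.injective
        rw [ha, hx1.inv.semi.zero, hy1.semi.zero]
      refine ⟨_, x * y * x⁻¹, σ a, (hx1.mul hy1).mul hx1.inv, (hxi.mul hyi).mul hxi.inv,
        (map_ne_zero σ).2 ha0, ?_⟩
      rw [Equiv.Perm.mul_apply, Equiv.Perm.mul_apply, ha, hx1.semi.smul, apply_inv_self]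
    · obtain ⟨a, ha⟩ := h1
      have ha0 : a ≠ 0 := by
        rintro rfl
        rw [zero_smul] at ha
        apply hv0
        apply x.injective
        apply y.injective
        rw [ha, hx1.semi.zero, hy1.semi.zero]
      refine ⟨_, x⁻¹ * y * x, σ⁻¹ a, (hx1.inv.mul hy1).mul hx1, (hxi.inv.mul hyi).mul hxi,
        (map_ne_zero σ⁻¹).2 ha0, ?_⟩
      rw [Equiv.Perm.mul_apply, Equiv.Perm.mul_apply, ha, hx1.inv.semi.smul, inv_apply_self]
  obtain ⟨θ, z, a, hz1, hz2, ha, hz3⟩ := hmem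
  have h3 : Ind (pr n F q) (rho n F q) (y⁻¹ * z) 1 := by
    have := hyi.inv.mul hz2
    rwa [inv_mul_cancel] at this
  obtain ⟨b, hb⟩ := scal_of_ind hF hn (hy1.inv.mul hz1) h3
  have hb0 := isScal_ne_zero hn hb
  have h4 : z v = y (b • v) := by
    rw [← hb, Equiv.Perm.mul_apply, apply_inv_self]
  rw [hz3, hy1.semi.smul] at h4
  refine ⟨(τ b)⁻¹ * a, ?_⟩
  rw [mul_smul, h4, smul_smul, inv_mul_cancel₀ ((map_ne_zero τ).2 hb0), one_smul]

/-- Products are `3`-elements modulo scalars. -/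
theorem pow_scal (h : ACfg 3 Γ C D) (hF : Fintype.card F = q ^ 2) (hn : 3 ≤ n)
    (hx : Lf C σ x) (hy : Lf D τ y) : ∃ k : ℕ, IsScal F ((x * y⁻¹) ^ 3 ^ k) := by
  have hfinP : Finite (PSU n F q) := Finite.of_surjective _ (pr_surjective (n := n) (F := F) (q := q))
  obtain ⟨hx1, c, hc, hxi⟩ := hx
  obtain ⟨hy1, d, hd, hyi⟩ := hy
  have hP := h.pair c hc d hd
  have hmem : c * d⁻¹ ∈ Subgroup.closure ({c, d} : Set (MulAut (PSU n F q))) :=
    mul_mem (Subgroup.subset_closure (by simp)) (inv_mem (Subgroup.subset_closure (by simp)))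
  obtain ⟨k, hk⟩ := hP ⟨_, hmem⟩
  refine ⟨k, scal_of_ind hF hn ((hx1.mul hy1.inv).pow _) ?_⟩
  have h1 := (hxi.mul hyi.inv).pow (3 ^ k)
  have h2 : (c * d⁻¹) ^ 3 ^ k = 1 := congrArg Subtype.val hk
  rwa [h2] at h1

/-- Baer-Suzuki. -/
theorem false_of_scl (h : ACfg 3 Γ C D) (hn : 3 ≤ n)
    (hx : Lf C σ x) (hy : Lf D τ y) {j : ℕ} (hj : Scl F (y ^ j) x) : False := by
  have : Fact (Nat.Prime 3) := ⟨Nat.prime_three⟩
  obtain ⟨hx1, c, hc, hxi⟩ := hx
  obtain ⟨hy1, d, hd, hyi⟩ := hy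
  obtain ⟨s, hs, hsv⟩ := hj
  have h1 : y ^ j = scal F (Fin n → F) (Units.mk0 s hs) * x := by
    ext1 v
    rw [hsv]
    rfl
  have h2 := hyi.pow j
  rw [h1] at h2
  have h3 := (ind_scal (n := n) (q := q) (Units.mk0 s hs)).mul hxi
  rw [one_mul] at h3
  have h4 : d ^ j = c := Ind.unique pr_surjective rho_injective h2 h3
  refine h.false_of_isConj hc hd (i := 1) (j := j) (g := 1) (one_mem _) ?_ ?_
  · rw [one_mul, inv_one, mul_one, pow_one, h4]
  · rw [pow_one]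
    exact ne_one h hc

end Cfsg.Agent.H874.Wf
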