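import Cfsg.Agent.H874.Wf.Lift

/-!
# The unipotent radical of the stabiliser of an isotropic point (S3826, row PSU)
-/

set_option autoImplicit false
set_option linter.unusedSectionVars false

namespace Cfsg.Agent.H874.Wf

open Cfsg Cfsg.Agent.LieClassical.HermBasic Cfsg.Agent.LieClassical.HermSiegel
open Cfsg.Agent.LieClassical.SUBasic Matrix
open Cfsg.Agent.ClassicalGeometry.PSUAutCount Cfsg.Agent.ClassicalGeometry.UnitAutBasic
open Cfsg.Agent.H957.T5V Cfsg.Agent.H957.T5U
open Cfsg.Agent.H177.MeetPSU (rho rho_apply rho_injective yy yy_apply ind_yy uniq ind_scal)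
open Cfsg.Agent.H903.SylSemi (Ind scal scal_apply)
open Cfsg.Agent.H533.Wf

variable {F : Type} [Field F] [Fintype F] {n q : ℕ}

/-- The elements of `SU` fixing `v` and acting trivially on `v^⊥ / ⟨v⟩`. -/
def Rv (q : ℕ) (v : Fin n → F) : Subgroup (SU n F q) where
  carrier := {s | act s v = v ∧ ∀ x, hermForm n F q x v = 0 → ∃ a : F, act s x = x + a • v}
  mul_mem' := by
    rintro s t ⟨h1, h2⟩ ⟨h1', h2'⟩
    refine ⟨by rw [act_mul, h1', h1], fun x hx => ?_⟩
    obtain ⟨a, ha⟩ := h2' x hx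
    obtain ⟨b, hb⟩ := h2 x hx
    refine ⟨b + a, ?_⟩
    rw [act_mul, ha, act_add, act_smul, h1, hb, add_smul, add_assoc]
  one_mem' := ⟨act_one v, fun x _ => ⟨0, by rw [act_one, zero_smul, add_zero]⟩⟩
  inv_mem' := by
    rintro s ⟨h1, h2⟩
    have h1' : act s⁻¹ v = v := by
      conv_lhs => rw [← h1, act_inv_act]
    refine ⟨h1', fun x hx => ?_⟩
    obtain ⟨a, ha⟩ := h2 x hx
    refine ⟨-a, ?_⟩
    apply act_injective s
    rw [act_act_inv, act_add, act_smul, ha, h1]
    module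

theorem mem_Rv {v : Fin n → F} {s : SU n F q} : s ∈ Rv q v ↔
    act s v = v ∧ ∀ x, hermForm n F q x v = 0 → ∃ a : F, act s x = x + a • v := Iff.rfl

theorem Rv_pow {p : ℕ} [Fact p.Prime] [CharP F p] (hn : 0 < n)
    {v : Fin n → F} {s : SU n F q} (hs : s ∈ Rv q v) : s ^ p ^ 2 = 1 := by
  have hp : p.Prime := Fact.out
  have : Nonempty (Fin n) := ⟨⟨0, hn⟩⟩
  obtain ⟨h1, h2⟩ := hs
  set N := mat s - 1 with hN
  have hNv : ∀ x, N *ᵥ x = act s x - x := by
    intro x
    rw [hN, Matrix.sub_mulVec, Matrix.one_mulVec]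
    rfl
  have hN3 : N ^ 3 = 0 := by
    apply Matrix.ext_of_mulVec_single
    intro i
    rw [Matrix.zero_mulVec, pow_succ, pow_two, ← Matrix.mulVec_mulVec, ← Matrix.mulVec_mulVec]
    set x := N *ᵥ Pi.single i 1 with hx
    have hxv : hermForm n F q x v = 0 := by
      rw [hx, hNv, herm_sub_left]
      have := herm_act s (Pi.single i 1) v
      rw [h1] at this
      rw [this, sub_self]
    obtain ⟨a, ha⟩ := h2 x hxv
    rw [hNv x, ha, add_sub_cancel_left, hNv, act_smul, h1, sub_self]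
  have hc : mat s ^ p ^ 2 = 1 := by
    have h3 := sub_pow_char_pow_of_commute (R := Matrix (Fin n) (Fin n) F) (p := p) (n := 2)
      (Commute.one_right (mat s))
    rw [one_pow, ← hN] at h3
    have h4 : N ^ p ^ 2 = 0 := by
      have h5 : 3 ≤ p ^ 2 := by nlinarith [hp.two_le]
      obtain ⟨m, hm⟩ := Nat.exists_eq_add_of_le h5
      rw [hm, pow_add, hN3, zero_mul]
    rw [h4] at h3
    exact (sub_eq_zero.1 h3.symm)
  apply mat_injective
  rw [mat_one, ← hc]
  have : ∀ m : ℕ, mat (s ^ m) = mat s ^ m := by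
    intro m
    induction m with
    | zero => rw [pow_zero, pow_zero, mat_one]
    | succ m ih => rw [pow_succ, pow_succ, mat_mul, ih]
  exact this _

theorem coprime_Rv (h3 : (3 : F) ≠ 0) (hn : 0 < n) (v : Fin n → F) :
    (Nat.card ((Rv q v).map (pr n F q))).Coprime 3 := by
  obtain ⟨p, hchar⟩ := CharP.exists F
  obtain ⟨k, hprime, -⟩ := FiniteField.card F p
  have := Fact.mk hprime
  have hfin : Finite (SU n F q) := inferInstance
  have hP : IsPGroup p (Rv q v) := by
    rintro ⟨s, hs⟩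
    exact ⟨2, Subtype.ext (Rv_pow hn hs)⟩
  have hP2 : IsPGroup p ((Rv q v).map (pr n F q)) := hP.map _
  have hfin2 : Finite (PSU n F q) := Finite.of_surjective _ pr_surjective
  obtain ⟨m, hm⟩ := IsPGroup.iff_card.mp hP2
  rw [hm]
  apply Nat.Coprime.pow_left
  rw [Nat.coprime_primes hprime Nat.prime_three]
  rintro rfl
  apply h3
  have := CharP.cast_eq_zero F 3
  exact_mod_cast this

variable {Γ : Subgroup (MulAut (PSU n F q))} {C D : Set (MulAut (PSU n F q))}
  {σ τ : F ≃+* F} {x y : Equiv.Perm (Fin n → F)}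

theorem Rv_conj (hF : Fintype.card F = q ^ 2) (hx : SI q σ x) {v : Fin n → F} {α : F} (hα : α ≠ 0)
    (hv : x v = α • v) {s s' : SU n F q} (hs : s ∈ Rv q v)
    (hss : rho n F q s' = x * rho n F q s * x⁻¹) : s' ∈ Rv q v := by
  obtain ⟨h1, h2⟩ := hs
  have h3 : ∀ u, act s' (x u) = x (act s u) := by
    intro u
    rw [← rho_apply, hss, Equiv.Perm.mul_apply, Equiv.Perm.mul_apply, inv_apply_self, rho_apply]
  have h4 : act s' v = v := by
    have h5 := h3 v
    rw [h1, hv, act_smul] at h5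
    exact smul_right_injective _ hα h5
  refine ⟨h4, fun u hu => ?_⟩
  have h5 : hermForm n F q (x⁻¹ u) v = 0 := by
    have h6 := hx.herm (x⁻¹ u) v
    rw [apply_inv_self, hv, herm_smul_right, hu, mul_zero] at h6
    exact (map_eq_zero σ).1 h6.symm
  obtain ⟨a, ha⟩ := h2 _ h5
  refine ⟨σ a * α, ?_⟩
  have h7 := h3 (x⁻¹ u)
  rw [apply_inv_self, ha, hx.semi.add, apply_inv_self, hx.semi.smul, hv, smul_smul] at h7
  exact h7

theorem eig_ne_zero (hx : SI q σ x) {v : Fin n → F} (hv0 : v ≠ 0) {α : F}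
    (hv : x v = α • v) : α ≠ 0 := by
  rintro rfl
  apply hv0
  apply x.injective
  rw [hv, zero_smul, hx.semi.zero]

theorem eig_inv (hx : SI q σ x) {v : Fin n → F} {α : F} (hα : α ≠ 0)
    (hv : x v = α • v) : x⁻¹ v = σ⁻¹ α⁻¹ • v := by
  apply x.injective
  rw [apply_inv_self, hx.semi.smul, hv, smul_smul]
  have : σ (σ⁻¹ α⁻¹) = α⁻¹ := RingEquiv.apply_symm_apply σ _
  rw [this, inv_mul_cancel₀ hα, one_smul]

theorem map_Rv_iff (hF : Fintype.card F = q ^ 2) {c : MulAut (PSU n F q)} (hx : SI q σ x)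
    (hc : Ind (pr n F q) (rho n F q) x c) {v : Fin n → F} (hv0 : v ≠ 0) {α : F}
    (hv : x v = α • v) (t : PSU n F q) :
    c t ∈ (Rv q v).map (pr n F q) ↔ t ∈ (Rv q v).map (pr n F q) := by
  have hfinP : Finite (PSU n F q) := Finite.of_surjective _ pr_surjective
  have hα := eig_ne_zero hx hv0 hv
  have key : ∀ {θ : F ≃+* F} {z : Equiv.Perm (Fin n → F)} {β : MulAut (PSU n F q)} {a : F},
      SI q θ z → Ind (pr n F q) (rho n F q) z β → a ≠ 0 → z v = a • v →
      ∀ t ∈ (Rv q v).map (pr n F q), β t ∈ (Rv q v).map (pr n F q) := by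
    rintro θ z β a hz hi ha hzv _ ⟨s, hs, rfl⟩
    obtain ⟨s', h1, h2⟩ := hi s
    rw [h2]
    exact ⟨s', Rv_conj hF hz ha hzv hs h1, rfl⟩
  constructor
  · intro h
    have h1 := key hx.inv hc.inv ((map_ne_zero σ⁻¹).2 (inv_ne_zero hα)) (eig_inv hx hα hv) _ h
    rwa [MulAut.inv_apply_self] at h1
  · exact key hx hc hα hv t

/-- If `c` and `d` fix the isotropic point `⟨v⟩` then `x` commutes with the commutators
`[r, d]`, `r ∈ R_v`. -/
theorem comm_of_fix (h : ACfg 3 Γ C D) (hF : Fintype.card F = q ^ 2) (hn : 3 ≤ n)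
    (h3 : (3 : F) ≠ 0) (hx : Lf C σ x) (hy : Lf D τ y) {v : Fin n → F} (hv0 : v ≠ 0)
    {α β : F} (hxv : x v = α • v) (hyv : y v = β • v) {r r' : SU n F q} (hr : r ∈ Rv q v)
    (hr' : rho n F q r' = y * rho n F q r * y⁻¹) (u : Fin n → F) :
    x (act (r⁻¹ * r') u) = act (r⁻¹ * r') (x u) := by
  have : Fact (Nat.Prime 3) := ⟨Nat.prime_three⟩
  obtain ⟨hx1, c, hc, hxi⟩ := hx
  obtain ⟨hy1, d, hd, hyi⟩ := hy
  have hα := eig_ne_zero hx1 hv0 hxv
  have hβ := eig_ne_zero hy1 hv0 hyv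
  have h1 := h.fix_comm (R := (Rv q v).map (pr n F q)) (coprime_Rv h3 (by omega) v) hc hd
    (map_Rv_iff hF hx1 hxi hv0 hxv) (map_Rv_iff hF hy1 hyi hv0 hyv) (r := pr n F q r)
    ⟨r, hr, rfl⟩
  have h2 : d (pr n F q r) = pr n F q r' := by
    obtain ⟨s', h3, h4⟩ := hyi r
    rw [h4, rho_injective (h3.trans hr'.symm)]
  rw [h2, ← map_inv, ← map_mul] at h1
  set g := r⁻¹ * r' with hg
  have hgR : g ∈ Rv q v := mul_mem (inv_mem hr) (Rv_conj hF hy1 hβ hyv hr hr')
  obtain ⟨g', h4, h5⟩ := hxi g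
  rw [h1] at h5
  -- `g'` and `g` differ by a scalar
  have h6 : Ind (pr n F q) (rho n F q) (rho n F q (g⁻¹ * g')) 1 := by
    have h7 := Ind.conj (pr n F q) (rho n F q) (g⁻¹ * g')
    rwa [map_mul (pr n F q), map_inv (pr n F q), ← h5, inv_mul_cancel, map_one] at h7
  obtain ⟨ζ, hζ⟩ := scal_of_ind hF hn (si_rho _) h6
  have hg'R : g' ∈ Rv q v := Rv_conj hF hx1 hα hxv hgR h4
  have h7 : ζ • v = v := by
    rw [← hζ, rho_apply]
    exact (mul_mem (inv_mem hgR) hg'R).1
  have h8 : ζ = 1 := by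
    have h9 : (ζ - 1) • v = 0 := by rw [sub_smul, h7, one_smul, sub_self]
    exact sub_eq_zero.1 ((smul_eq_zero.1 h9).resolve_right hv0)
  have h9 : g' = g := by
    apply ext_act
    intro w
    have := hζ w
    rw [h8, one_smul, rho_apply, act_mul] at this
    rw [← this, act_act_inv, this]
  rw [h9] at h4
  have h10 := congrArg (fun p : Equiv.Perm (Fin n → F) => p (x u)) h4
  simp only [Equiv.Perm.mul_apply, inv_apply_self, rho_apply] at h10
  exact h10.symm

theorem exists_h1 (hF : Fintype.card F = q ^ 2) {v : Fin n → F} (hv0 : v ≠ 0) :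
    ∃ u, hermForm n F q u v = 1 := by
  obtain ⟨u, hu⟩ := exists_herm_ne_zero hF hv0
  have hu' : hermForm n F q u v ≠ 0 := fun h => hu (herm_eq_zero_swap hF h)
  exact ⟨(hermForm n F q u v)⁻¹ • u, by rw [herm_smul_left, inv_mul_cancel₀ hu']⟩

/-- The conjugate of a Siegel transformation. -/
theorem rho_siegel_conj (hF : Fintype.card F = q ^ 2) (hy : SI q τ y) {v w : Fin n → F} {μ : F}
    (hS : IsSiegel q v w μ) {β : F} (hyv : y v = β • v) :
    ∃ hS' : IsSiegel q v (β ^ q • y w) (β * β ^ q * τ μ),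
      rho n F q (siegel hF v (β ^ q • y w) (β * β ^ q * τ μ) hS')
        = y * rho n F q (siegel hF v w μ hS) * y⁻¹ := by
  have hvv := hS.iso
  have hβqq : (β ^ q) ^ q = β := pow_q_pow_q hF β
  have hwv : hermForm n F q (y w) v = 0 ∨ β = 0 := by
    have h1 := hy.herm w v
    rw [hS.orth, map_zero, hyv, herm_smul_right] at h1
    rcases mul_eq_zero.1 h1 with h2 | h2
    · right; exact (pow_q_eq_zero hF).1 h2
    · left; exact h2
  have hS' : IsSiegel q v (β ^ q • y w) (β * β ^ q * τ μ) := by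
    refine ⟨hvv, ?_, ?_⟩
    · rw [herm_smul_left]
      rcases hwv with h | h
      · rw [h, mul_zero]
      · rw [h, zero_pow_q hF, zero_mul]
    · rw [herm_smul_left, herm_smul_right, hβqq, hy.herm, mul_pow, mul_pow, hβqq]
      have h1 := congrArg τ hS.tr
      rw [map_add, map_add, map_pow, map_zero] at h1
      linear_combination (β * β ^ q) * h1
  refine ⟨hS', ?_⟩
  rw [eq_mul_inv_iff_mul_eq]
  ext1 u
  rw [Equiv.Perm.mul_apply, Equiv.Perm.mul_apply, rho_apply, rho_apply, act_siegel, act_siegel,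
    hy.semi.add, hy.semi.add, hy.semi.smul, hy.semi.smul, hyv]
  have h1 : τ (hermForm n F q u v) = β ^ q * hermForm n F q (y u) v := by
    rw [← hy.herm, hyv, herm_smul_right]
  have h2 : τ (hermForm n F q u w) = hermForm n F q (y u) (y w) := (hy.herm u w).symm
  rw [h1, map_sub, map_mul, h1, h2, herm_smul_right, hβqq, smul_smul, smul_smul]
  congr 2
  · rw [mul_comm]
  · ring_nf

/-- The action on `v^⊥ / ⟨v⟩`. -/
theorem act_perp (h : ACfg 3 Γ C D) (hF : Fintype.card F = q ^ 2) (hn : 3 ≤ n)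
    (h3 : (3 : F) ≠ 0) (hx : Lf C σ x) (hy : Lf D τ y) {v : Fin n → F} (hv0 : v ≠ 0)
    (hvv : hermForm n F q v v = 0)
    {α β : F} (hxv : x v = α • v) (hyv : y v = β • v) {w : Fin n → F}
    (hw : hermForm n F q w v = 0) :
    ∃ e : F, α ^ q • x (β ^ q • y w - w) = (β ^ q • y w - w) + e • v := by
  obtain ⟨μ, hμ⟩ := exists_trace_eq hF (c := -hermForm n F q w w)
    (by rw [neg_pow_q hF, herm_self_pow hF])
  have hS : IsSiegel q v w μ := ⟨hvv, hw, by rw [hμ, neg_add_cancel]⟩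
  obtain ⟨hS', hr'⟩ := rho_siegel_conj hF hy.1 hS hyv
  set w1 := β ^ q • y w with hw1
  set r := siegel hF v w μ hS with hr
  set r' := siegel hF v w1 (β * β ^ q * τ μ) hS' with hr1
  have hmem : ∀ {w' : Fin n → F} {μ' : F} (hS : IsSiegel q v w' μ'),
      siegel hF v w' μ' hS ∈ Rv q v := by
    intro w' μ' hS
    refine ⟨act_siegel_self hF hS, fun u hu => ?_⟩
    rw [act_siegel, hu, zero_smul, add_zero]
    exact ⟨_, rfl⟩
  have hrR : r ∈ Rv q v := hmem hS
  have hr'R : r' ∈ Rv q v := hmem hS'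
  have hcomm := comm_of_fix h hF hn h3 hx hy hv0 hxv hyv hrR hr'
  set g := r⁻¹ * r' with hg
  have hgR : g ∈ Rv q v := mul_mem (inv_mem hrR) hr'R
  obtain ⟨u, hu⟩ := exists_h1 hF hv0
  set z := act g u - u with hz
  have hgu : act g u = u + z := by rw [hz]; abel
  have hzv : hermForm n F q z v = 0 := by
    have h1 := herm_act g u v
    rw [hgR.1] at h1
    rw [hz, herm_sub_left, h1, sub_self]
  -- `z = w1 - w` modulo `v`
  have h4 : ∃ e : F, z = (w1 - w) + e • v := by
    have h5 : act r (act g u) = act r' u := by rw [hg, act_mul, act_act_inv]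
    obtain ⟨a, ha⟩ := hrR.2 z hzv
    rw [hgu, act_add, ha, hr, act_siegel, hr1, act_siegel, hu, one_smul, one_smul] at h5
    refine ⟨(β * β ^ q * τ μ * 1 - hermForm n F q u w1) - (μ * 1 - hermForm n F q u w) - a, ?_⟩
    have h6 : z = (u + w1 + (β * β ^ q * τ μ * 1 - hermForm n F q u w1) • v)
        - (u + w + (μ * 1 - hermForm n F q u w) • v) - a • v := by
      rw [← h5]; abel
    rw [h6]
    module
  obtain ⟨e, he⟩ := h4
  have hα := eig_ne_zero hx.1 hv0 hxv
  -- `x z = α^{-q} z`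
  have h5 := hcomm u
  rw [hgu, hx.1.semi.add] at h5
  set a' := hermForm n F q (x u) v with ha'
  have h6 : α ^ q * a' = 1 := by
    have h7 := hx.1.herm u v
    rw [hu, map_one, hxv, herm_smul_right] at h7
    exact h7
  have h7 : ∃ e' : F, act g (x u) = x u + a' • z + e' • v := by
    have h8 : hermForm n F q (x u - a' • u) v = 0 := by
      rw [herm_sub_left, herm_smul_left, hu, mul_one, sub_self]
    obtain ⟨e', he'⟩ := hgR.2 _ h8
    refine ⟨e', ?_⟩
    rw [act_sub, act_smul, hgu] at he'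
    have h9 : act g (x u) = (x u - a' • u + e' • v) + a' • (u + z) := by
      rw [← he']; abel
    rw [h9]
    module
  obtain ⟨e', he'⟩ := h7
  rw [he', add_assoc] at h5
  have h8 : x z = a' • z + e' • v := add_left_cancel h5
  have h9 : x z = x (w1 - w) + (σ e * α) • v := by
    rw [he, hx.1.semi.add, hx.1.semi.smul, hxv, smul_smul]
  refine ⟨α ^ q * (a' * e + e' - σ e * α), ?_⟩
  have h10 : x (w1 - w) = a' • z + e' • v - (σ e * α) • v := by
    rw [← h8, h9]; abel
  have h11 : α ^ q • (a' • (w1 - w + e • v) + e' • v - (σ e * α) • v)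
      = (α ^ q * a') • (w1 - w) + (α ^ q * (a' * e + e' - σ e * α)) • v := by module
  rw [h10, he, h11, h6, one_smul]

/-- The action on the transvections. -/
theorem act_trans (h : ACfg 3 Γ C D) (hF : Fintype.card F = q ^ 2) (hn : 3 ≤ n)
    (h3 : (3 : F) ≠ 0) (hx : Lf C σ x) (hy : Lf D τ y) {v : Fin n → F} (hv0 : v ≠ 0)
    (hvv : hermForm n F q v v = 0)
    {α β : F} (hxv : x v = α • v) (hyv : y v = β • v) {μ : F} (hμ : μ + μ ^ q = 0) :
    α * α ^ q * σ (β * β ^ q * τ μ - μ) = β * β ^ q * τ μ - μ := by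
  have hS : IsSiegel q v (0 : Fin n → F) μ := ⟨hvv, herm_zero_left _, by
    rw [hμ, herm_zero_left, add_zero]⟩
  obtain ⟨hS', hr'⟩ := rho_siegel_conj hF hy.1 hS hyv
  set r := siegel hF v 0 μ hS with hr
  set r' := siegel hF v (β ^ q • y 0) (β * β ^ q * τ μ) hS' with hr1
  have hmem : ∀ {w' : Fin n → F} {μ' : F} (hS : IsSiegel q v w' μ'),
      siegel hF v w' μ' hS ∈ Rv q v := by
    intro w' μ' hS
    refine ⟨act_siegel_self hF hS, fun u hu => ?_⟩
    rw [act_siegel, hu, zero_smul, add_zero]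
    exact ⟨_, rfl⟩
  have hrR : r ∈ Rv q v := hmem hS
  have hr'R : r' ∈ Rv q v := hmem hS'
  have hcomm := comm_of_fix h hF hn h3 hx hy hv0 hxv hyv hrR hr'
  set g := r⁻¹ * r' with hg
  have hgR : g ∈ Rv q v := mul_mem (inv_mem hrR) hr'R
  have hy0 : β ^ q • y 0 = 0 := by rw [hy.1.semi.zero, smul_zero]
  set δ := β * β ^ q * τ μ - μ with hδ
  have hgu : ∀ u, act g u = u + (δ * hermForm n F q u v) • v := by
    intro u
    apply act_injective r
    have e1 : act r' u = u + hermForm n F q u v • (0 : Fin n → F) +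
        (β * β ^ q * τ μ * hermForm n F q u v - hermForm n F q u (0 : Fin n → F)) • v := by
      rw [hr1, act_siegel, hy0]
    have e2 : act r u = u + hermForm n F q u v • (0 : Fin n → F) +
        (μ * hermForm n F q u v - hermForm n F q u (0 : Fin n → F)) • v := by
      rw [hr, act_siegel]
    rw [hg, act_mul, act_act_inv, act_add, act_smul, hrR.1, e1, e2, herm_zero_right hF, hδ]
    module
  obtain ⟨u, hu⟩ := exists_h1 hF hv0
  have h5 := hcomm u
  rw [hgu, hgu, hu, mul_one, hx.1.semi.add, hx.1.semi.smul, hxv, smul_smul] at h5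
  have h6 : (σ δ * α) • v = (δ * hermForm n F q (x u) v) • v := add_left_cancel h5
  have h7 : σ δ * α = δ * hermForm n F q (x u) v := by
    have h8 : (σ δ * α - δ * hermForm n F q (x u) v) • v = 0 := by rw [sub_smul, h6, sub_self]
    exact sub_eq_zero.1 ((smul_eq_zero.1 h8).resolve_right hv0)
  have h8 : α ^ q * hermForm n F q (x u) v = 1 := by
    have h9 := hx.1.herm u v
    rw [hu, map_one, hxv, herm_smul_right] at h9
    exact h9
  calc α * α ^ q * σ δ = α ^ q * (σ δ * α) := by ring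
    _ = δ * (α ^ q * hermForm n F q (x u) v) := by rw [h7]; ring
    _ = δ := by rw [h8, mul_one]

end Cfsg.Agent.H874.Wf
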