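import Cfsg.Agent.H874.Wf.Singer2
import Cfsg.Agent.S0282

/-!
# S3826, `p = 3`: the row `PSU_n(q)`, `3` not dividing `q`

`wf_psu_cross`.  The elements of order 3 of `Aut PSU_n(q)` are induced by semilinear isometries `x`
with `x³` a scalar.  If `3 ∣ q - 1` there is always an isotropic point fixed by `x` on whose
transvection group `x` acts non-trivially (`false_of_IP`: `p'`-subgroups).  If `3 ∣ q + 1` then `x` is
diagonal on three orthonormal vectors with a double eigenvalue (`GT`; `false_of_GT`: the unipotent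
radical of an isotropic point), or `n = 3` and `x = diag(1, ω, ω²)` (`Reg`), or `x³` is not a cube
(`Irr`).  `Reg`, `Irr` against `GT`: the wreath-free lemma on points (`false_of_cyc`); `Reg` x `Reg`,
`Irr` x `Irr`: Baer-Suzuki; `Irr` x `Reg`: a product in the Singer cycle (`false_of_irr_reg`).
-/

set_option autoImplicit false
set_option linter.unusedSectionVars false

namespace Cfsg.Agent.H874.Wf

universe u v

open Cfsg Cfsg.Agent.LieClassical.HermBasic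
open Cfsg.Agent.H957.T5V Cfsg.Agent.H957.T5U
open Cfsg.Agent.H533.Wf

variable {F : Type} [Field F] [Fintype F]

theorem false_GT_reg {n q : ℕ} {Γ : Subgroup (MulAut (PSU n F q))}
    {C D : Set (MulAut (PSU n F q))} {σ : F ≃+* F} {x y : Equiv.Perm (Fin n → F)}
    (h : ACfg 3 Γ C D) (hF : Fintype.card F = q ^ 2) (h32 : ¬ (n = 3 ∧ q = 2))
    (h31 : 3 ∣ q + 1) (h3 : (3 : F) ≠ 0) {ω : F} (hω : Om q ω) (hx : Lf C σ x) (hy : Lf D 1 y)
    {b : Fin 3 → (Fin n → F)} {η η' : F} (hg : GT q σ x b η η') (hn3 : n = 3)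
    {b' : Fin 3 → (Fin n → F)} (hr : Reg q ω y b') : False := by
  subst hn3
  obtain ⟨t, u, hc⟩ := Reg.cyc hF (fun hq => h32 ⟨rfl, hq⟩) h3 hy.1 hω hr
  exact false_of_cyc h.symm hF le_rfl h31 hy hx hc hg

theorem false_irr_reg' {n q : ℕ} {Γ : Subgroup (MulAut (PSU n F q))}
    {C D : Set (MulAut (PSU n F q))} {x y : Equiv.Perm (Fin n → F)}
    (h : ACfg 3 Γ C D) (hF : Fintype.card F = q ^ 2) (h32 : ¬ (n = 3 ∧ q = 2))
    (h31 : 3 ∣ q + 1) (h3 : (3 : F) ≠ 0) {ω l : F} (hω : Om q ω) (hx : Lf C 1 x) (hy : Lf D 1 y)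
    (hi : Irr q x l) (hn3 : n = 3) {b' : Fin 3 → (Fin n → F)} (hr : Reg q ω y b') : False := by
  subst hn3
  exact false_of_irr_reg h hF (fun hq => h32 ⟨rfl, hq⟩) h31 h3 hx hy hi hω hr

theorem false_reg_reg' {n q : ℕ} {Γ : Subgroup (MulAut (PSU n F q))}
    {C D : Set (MulAut (PSU n F q))} {x y : Equiv.Perm (Fin n → F)}
    (h : ACfg 3 Γ C D) (hF : Fintype.card F = q ^ 2) {ω : F} (hx : Lf C 1 x) (hy : Lf D 1 y)
    (hn3 : n = 3) {b b' : Fin 3 → (Fin n → F)} (hr : Reg q ω x b) (hr' : Reg q ω y b') :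
    False := by
  subst hn3
  exact false_of_reg h hF hx hy hr hr'

theorem arow_psu {n q : ℕ} (h3 : (3 : F) ≠ 0) (hn : 3 ≤ n) (hF : Fintype.card F = q ^ 2) :
    ARow 3 (PSU n F q) := by
  intro Γ C D h
  have h32 : ¬ (n = 3 ∧ q = 2) := by
    rintro ⟨rfl, rfl⟩
    have h1 : Group.IsSolvable (Cfsg.PSU 3 F 2) := (Cfsg.Agent.S0282.result (by rw [hF]; rfl)).2
    have := h.simple
    exact h.nc ⟨⟨IsSimpleGroup.comm_iff_isSolvable.2 h1⟩⟩
  obtain ⟨c, hc⟩ := h.neC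
  obtain ⟨d, hd⟩ := h.neD
  obtain ⟨σ, x, hx⟩ := exists_lift hF hn h32 hc
  obtain ⟨τ, y, hy⟩ := exists_lift hF hn h32 hd
  by_cases h31 : 3 ∣ q + 1
  · obtain ⟨ω, hω⟩ := exists_om hF h31
    rcases classify h hF hn h31 hω hx with
      ⟨x', b, η, η', hx', hg⟩ | ⟨hn3, rfl, x', b, hx', hr⟩ | ⟨rfl, l, hi⟩
    · rcases classify h.symm hF hn h31 hω hy with
        ⟨y', b', θ, θ', hy', hg'⟩ | ⟨hn3, rfl, y', b', hy', hr'⟩ | ⟨rfl, l', hi'⟩
      · exact false_of_GT h hF hn h3 hx' hy' hg hg'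
      · exact false_GT_reg h hF h32 h31 h3 hω hx' hy' hg hn3 hr'
      · obtain ⟨u, hu⟩ := hi'.cyc hF (by omega) h31 hy.1 h3
        exact false_of_cyc h.symm hF hn h31 hy hx' hu hg
    · rcases classify h.symm hF hn h31 hω hy with
        ⟨y', b', θ, θ', hy', hg'⟩ | ⟨-, rfl, y', b', hy', hr'⟩ | ⟨rfl, l', hi'⟩
      · exact false_GT_reg h.symm hF h32 h31 h3 hω hy' hx' hg' hn3 hr
      · exact false_reg_reg' h hF hx' hy' hn3 hr hr'
      · exact false_irr_reg' h.symm hF h32 h31 h3 hω hy hx' hi' hn3 hr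
    · rcases classify h.symm hF hn h31 hω hy with
        ⟨y', b', θ, θ', hy', hg'⟩ | ⟨hn3, rfl, y', b', hy', hr'⟩ | ⟨rfl, l', hi'⟩
      · obtain ⟨u, hu⟩ := hi.cyc hF (by omega) h31 hx.1 h3
        exact false_of_cyc h hF hn h31 hx hy' hu hg'
      · exact false_irr_reg' h hF h32 h31 h3 hω hx hy' hi hn3 hr'
      · exact false_of_irr h hF hn h31 h3 hx hy hi hi'
  · obtain ⟨x', hx', h1⟩ := classify_one h hF hn h3 h31 hx
    obtain ⟨y', hy', h2⟩ := classify_one h.symm hF hn h3 h31 hy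
    exact false_of_IP h hF hn h3 hx' hy' h1 h2

/-- **The row `PSU` in cross characteristic.** -/
theorem wf_psu_cross {K : Type v} [Group K] [Finite K] [IsSimpleGroup K] {F : Type} [Field F]
    [Fintype F] (h3 : (3 : F) ≠ 0) {n q : ℕ} (hn : 3 ≤ n) (hF : Fintype.card F = q ^ 2)
    (e : Nonempty (K ≃* Cfsg.PSU n F q)) : Cfsg.Agent.H533.Wf.WfRow.{u, v} 3 K := by
  obtain ⟨e⟩ := e
  rintro G _ _ S C D h ⟨f⟩
  exact WfRow.of_arow (arow_psu h3 hn hF) G S C D h ⟨f.trans e⟩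

end Cfsg.Agent.H874.Wf
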