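import Cfsg.Agent.H874.Wf.Conj

/-!
# Irreducible elements against irreducible / regular diagonal elements (S3826, row PSU)
-/

set_option autoImplicit false
set_option linter.unusedSectionVars false

namespace Cfsg.Agent.H874.Wf

open Cfsg Cfsg.Agent.LieClassical.HermBasic Cfsg.Agent.LieClassical.HermSiegel
open Cfsg.Agent.LieClassical.SUBasic Matrix
open Cfsg.Agent.ClassicalGeometry.PSUAutCount Cfsg.Agent.ClassicalGeometry.UnitAutBasic
open Cfsg.Agent.H957.T5V Cfsg.Agent.H957.T5U Cfsg.Agent.H957.T5Conf Cfsg.Agent.H957.T5Pairs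
open Cfsg.Agent.H177.MeetPSU (rho rho_apply rho_injective yy yy_apply ind_yy uniq ind_scal)
open Cfsg.Agent.H533.Wf

variable {F : Type} [Field F] [Fintype F] {n q : ℕ} {x y : Equiv.Perm (Fin n → F)} {l l' : F}

/-- Two irreducible elements. -/
theorem false_of_irr {Γ : Subgroup (MulAut (PSU n F q))} {C D : Set (MulAut (PSU n F q))}
    (h : ACfg 3 Γ C D) (hF : Fintype.card F = q ^ 2) (hn : 3 ≤ n) (h31 : 3 ∣ q + 1)
    (h3 : (3 : F) ≠ 0) (hx : Lf C 1 x) (hy : Lf D 1 y) (hi : Irr q x l) (hi' : Irr q y l') :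
    False := by
  obtain ⟨κ, j, hκ, hκj⟩ := exists_cube_mul hF h31 hi'.nl hi'.nc hi.nl
  have hκ0 : κ ≠ 0 := by
    rintro rfl
    rw [zero_mul] at hκ
    exact zero_ne_one hκ
  have hyj : SI q (1 : F ≃+* F) (y ^ j) := by
    have := hy.1.pow j
    rwa [one_pow] at this
  have hy2 := hyj.smulA (s := Units.mk0 κ hκ0) hκ
  set y2 := smulA (Units.mk0 κ hκ0) (y ^ j) with hy2d
  have hy2v : ∀ v, y2 v = κ • (y ^ j) v := fun v => rfl
  have hyl : ∀ (m : ℕ) (v : Fin n → F), ((y ^ 3) ^ m) v = l' ^ m • v := by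
    intro m
    induction m with
    | zero => intro v; simp
    | succ m ih =>
      intro v
      rw [pow_succ, Equiv.Perm.mul_apply, ih, hi'.cube, smul_smul, pow_succ]
  have hi2 : Irr q y2 l := by
    refine ⟨fun v => ?_, hi.nl, hi.nc⟩
    change y2 (y2 (y2 v)) = _
    rw [hy2v, hy2v, hy2v, hyj.semi.smul, hyj.semi.smul, hyj.semi.smul]
    change κ • κ • κ • (y ^ j) ((y ^ j) ((y ^ j) v)) = _
    have h1 : (y ^ j) ((y ^ j) ((y ^ j) v)) = ((y ^ 3) ^ j) v := by
      rw [← pow_mul, mul_comm, pow_mul]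
      rfl
    rw [h1, hyl, smul_smul, smul_smul, smul_smul, ← hκj]
    congr 1
    ring
  obtain ⟨s, hs⟩ := Irr.conj hF hn h31 h3 hx.1 hy2 hi hi2
  refine false_of_scl h hn hx (hy.conj h.symm s) (j := j) ⟨κ⁻¹, inv_ne_zero hκ0, fun v => ?_⟩
  rw [conj_pow, ← hs, Equiv.Perm.mul_apply, Equiv.Perm.mul_apply, Equiv.Perm.mul_apply,
    Equiv.Perm.mul_apply, hy2v, rho_apply, rho_apply, act_smul, smul_smul, inv_mul_cancel₀ hκ0,
    one_smul]

/-- Linear isometries as permutations. -/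
theorem exists_perm (hF : Fintype.card F = q ^ 2) (g : (Fin n → F) →ₗ[F] (Fin n → F))
    (hg : ∀ u v, hermForm n F q (g u) (g v) = hermForm n F q u v) :
    ∃ z : Equiv.Perm (Fin n → F), SI q (1 : F ≃+* F) z ∧ ∀ v, z v = g v := by
  have hinj : Function.Injective g := by
    rw [injective_iff_map_eq_zero]
    intro v hv
    apply herm_nondeg hF (u := v)
    intro w
    rw [← hg, hv, herm_zero_left]
  refine ⟨Equiv.ofBijective g (Finite.injective_iff_bijective.1 hinj), ⟨⟨fun u v => map_add g u v,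
    fun a v => map_smul g a v⟩, fun u v => hg u v⟩, fun v => rfl⟩

theorem Zm_e {e g : Fin 3 → (Fin n → F)} (he : Ort q e) (r : Fin 3) :
    Zm q e g *ᵥ e r = g r := by
  rw [Zm_mulVec]
  simp only [he _ _]
  simp

theorem cube_of_pow (hF : Fintype.card F = q ^ 2) {m : ℕ} (hm : q ^ 2 = 3 * m + 1) {l : F}
    (hl0 : l ≠ 0) (hl : l ^ m = 1) : ∃ t : F, t ^ 3 = l := by
  classical
  obtain ⟨g, hg⟩ := IsCyclic.exists_generator (α := Fˣ)
  obtain ⟨a, ha⟩ := Subgroup.mem_zpowers_iff.1 (hg (Units.mk0 l hl0))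
  have hcard : orderOf g = 3 * m := by
    rw [orderOf_eq_card_of_forall_mem_zpowers hg, Nat.card_eq_fintype_card, Fintype.card_units, hF,
      hm, Nat.add_sub_cancel]
  have hm0 : m ≠ 0 := by
    rintro rfl
    have := two_le hF
    nlinarith
  have h1 : g ^ (a * m) = 1 := by
    rw [_root_.zpow_mul, ha, zpow_natCast]
    exact Units.ext (by simpa using hl)
  have h2 : ((3 * m : ℕ) : ℤ) ∣ a * m := by
    rw [← hcard]
    exact orderOf_dvd_iff_zpow_eq_one.2 h1
  have h3 : (3 : ℤ) ∣ a := by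
    push_cast at h2
    exact Int.dvd_of_mul_dvd_mul_right (by exact_mod_cast hm0) h2
  obtain ⟨b, rfl⟩ := h3
  refine ⟨((g ^ b : Fˣ) : F), ?_⟩
  have h4 : (g ^ b) ^ 3 = Units.mk0 l hl0 := by
    rw [← ha, mul_comm (3 : ℤ) b, _root_.zpow_mul]
    norm_cast
  have h5 := congrArg (fun u : Fˣ => (u : F)) h4
  simpa using h5

theorem exists_r (hq : 2 < q) (h31 : 3 ∣ q + 1) :
    ∃ r : ℕ, r.Prime ∧ r ≠ 3 ∧ r ∣ q ^ 2 - q + 1 ∧ Nat.Coprime r (q ^ 2 - 1) := by
  obtain ⟨t, ht⟩ : ∃ t, q = 3 * t + 2 := by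
    obtain ⟨k, hk⟩ := h31
    exact ⟨k - 1, by omega⟩
  have ht1 : 1 ≤ t := by omega
  set m := 3 * (t * t) + 3 * t + 1 with hm
  have hm1 : m ≠ 1 := by
    have : 1 ≤ t * t := Nat.mul_pos ht1 ht1
    omega
  have hqq : q ^ 2 = 9 * (t * t) + 12 * t + 4 := by rw [ht]; ring
  have hqm : q ^ 2 - q + 1 = 3 * m := by omega
  refine ⟨m.minFac, Nat.minFac_prime hm1, ?_, ?_, ?_⟩
  · intro h
    have h1 := Nat.minFac_dvd m
    rw [h] at h1
    omega
  · rw [hqm]
    exact (Nat.minFac_dvd m).mul_left 3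
  · have hp := Nat.minFac_prime hm1
    rw [Nat.Prime.coprime_iff_not_dvd hp]
    intro h1
    have h2 : m.minFac ∣ 3 * m := (Nat.minFac_dvd m).mul_left 3
    -- `3 m - (q^2 - 1) = 2 - q`
    have h3 : m.minFac ∣ (q ^ 2 - 1) - 3 * m := Nat.dvd_sub h1 h2
    have h4 : (q ^ 2 - 1) - 3 * m = 3 * t := by omega
    rw [h4] at h3
    have h5 : m.minFac ∣ m := Nat.minFac_dvd m
    have h6 : m.minFac ∣ 3 * t * t + 3 * t := dvd_add (h3.mul_right t) h3
    have h7 : m.minFac ∣ m - (3 * t * t + 3 * t) := Nat.dvd_sub h5 h6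
    have h8 : m - (3 * t * t + 3 * t) = 1 := by
      have : 3 * t * t = 3 * (t * t) := by ring
      omega
    rw [h8, Nat.dvd_one] at h7
    exact hp.one_lt.ne' h7

section alg

open Polynomial

variable {f : Module.End F (Fin n → F)}

theorem aeval_congr (hf : aeval f (X ^ 3 - C l : F[X]) = 0) {a b : F[X]}
    (hab : AdjoinRoot.mk (X ^ 3 - C l) a = AdjoinRoot.mk (X ^ 3 - C l) b) :
    aeval f a = aeval f b := by
  have h1 : AdjoinRoot.mk (X ^ 3 - C l) (a - b) = 0 := by rw [map_sub, hab, sub_self]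
  obtain ⟨c, hc⟩ := AdjoinRoot.mk_eq_zero.1 h1
  have h2 : aeval f (a - b) = 0 := by rw [hc, map_mul, hf, zero_mul]
  rw [map_sub] at h2
  exact sub_eq_zero.1 h2

theorem mk_of_aeval (hn : 0 < n) (hirr : Irreducible (X ^ 3 - C l : F[X]))
    (hf : aeval f (X ^ 3 - C l : F[X]) = 0)
    {a : F[X]} (ha : aeval f a = 0) : AdjoinRoot.mk (X ^ 3 - C l) a = 0 := by
  rw [AdjoinRoot.mk_eq_zero]
  by_contra hcon
  obtain ⟨A, B, hAB⟩ := (hirr.coprime_iff_not_dvd (n := a)).2 hcon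
  have h1 := congrArg (fun r => aeval f r) hAB
  simp only [map_add, map_one, map_mul, ha, hf, mul_zero, add_zero] at h1
  have h2 := LinearMap.congr_fun h1 (Pi.single ⟨0, hn⟩ 1)
  have h3 := congrFun h2 ⟨0, hn⟩
  simp at h3

/-- The Frobenius. -/
theorem frob (hF : Fintype.card F = q ^ 2) {ω : F} (hfω : f ^ q ^ 2 = ω • f)
    {s : Module.End F (Fin n → F)} (hs : s * f = (ω • f) * s) (a : F[X]) :
    s * aeval f a = aeval f (a ^ q ^ 2) * s := by
  induction a using Polynomial.induction_on' with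
  | add a b ha hb =>
    rw [add_pow_N hF 2, map_add, map_add, mul_add, add_mul, ha, hb]
  | monomial k t =>
    have h1 : s * f ^ k = (ω • f) ^ k * s := by
      induction k with
      | zero => simp
      | succ k ih => rw [pow_succ, ← mul_assoc, ih, mul_assoc, hs, ← mul_assoc, pow_succ]
    have ht : t ^ q ^ 2 = t := by
      rw [← hF]
      exact FiniteField.pow_card t
    rw [Polynomial.monomial_pow, ht, aeval_monomial, aeval_monomial, mul_comm k, pow_mul, hfω,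
      ← Algebra.smul_def, ← Algebra.smul_def, mul_smul_comm, h1, smul_mul_assoc]

end alg

end Cfsg.Agent.H874.Wf
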