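import Cfsg.Agent.H874.Wf.Singer

/-!
# Irreducible elements against regular diagonal elements, `n = 3` (S3826, row PSU)
-/

set_option autoImplicit false
set_option linter.unusedSectionVars false

namespace Cfsg.Agent.H874.Wf

open Cfsg Cfsg.Agent.LieClassical.HermBasic Cfsg.Agent.LieClassical.HermSiegel
open Cfsg.Agent.LieClassical.SUBasic Matrix
open Cfsg.Agent.ClassicalGeometry.PSUAutCount Cfsg.Agent.ClassicalGeometry.UnitAutBasic
open Cfsg.Agent.H957.T5V Cfsg.Agent.H957.T5U Cfsg.Agent.H957.T5Conf Cfsg.Agent.H957.T5Pairs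
open Cfsg.Agent.H177.MeetPSU (rho rho_apply rho_injective yy yy_apply ind_yy uniq ind_scal)
open Cfsg.Agent.H533.Wf

variable {F : Type} [Field F] [Fintype F] {q : ℕ} {l : F}

theorem Reg.conj_eq {x y : Equiv.Perm (Fin 3 → F)} (hF : Fintype.card F = q ^ 2)
    (hx : SI q (1 : F ≃+* F) x) (hy : SI q (1 : F ≃+* F) y) {ω : F}
    {b b' : Fin 3 → (Fin 3 → F)} (h1 : Reg q ω x b) (h2 : Reg q ω y b') :
    ∃ s : SU 3 F q, rho 3 F q s * y * (rho 3 F q s)⁻¹ = x := by
  obtain ⟨s, κ, hκ, hs0, hs1, hs2⟩ := exists_triple hF le_rfl h1.ort h2.ort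
  refine ⟨s, ext_onb hF (hy.conj s) hx h1.ort ?_⟩
  intro i
  fin_cases i
  · change (rho 3 F q s * y * (rho 3 F q s)⁻¹) (b 0) = x (b 0)
    rw [h1.e0, ← hs0, conj_apply', h2.e0]
  · change (rho 3 F q s * y * (rho 3 F q s)⁻¹) (b 1) = x (b 1)
    rw [h1.e1, ← hs1, conj_apply', h2.e1, act_smul]
  · change (rho 3 F q s * y * (rho 3 F q s)⁻¹) (b 2) = x (b 2)
    rw [h1.e2]
    have h3 : b 2 = act s (κ⁻¹ • b' 2) := by
      rw [act_smul, hs2, smul_smul, inv_mul_cancel₀ hκ, one_smul]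
    rw [h3, conj_apply', hy.semi.smul, h2.e2]
    change act s (κ⁻¹ • ω ^ 2 • b' 2) = _
    rw [smul_comm, act_smul]

open Polynomial in
/-- Irreducible against regular diagonal elements. -/
theorem false_of_irr_reg {Γ : Subgroup (MulAut (PSU 3 F q))} {C' D' : Set (MulAut (PSU 3 F q))}
    {x y : Equiv.Perm (Fin 3 → F)} (h : ACfg 3 Γ C' D') (hF : Fintype.card F = q ^ 2) (hq : q ≠ 2)
    (h31 : 3 ∣ q + 1) (h3 : (3 : F) ≠ 0) (hx : Lf C' 1 x) (hy : Lf D' 1 y) (hi : Irr q x l)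
    {ω : F} (hω : Om q ω) {b : Fin 3 → (Fin 3 → F)} (hr : Reg q ω y b) : False := by
  classical
  have hq2 := two_le hF
  -- a block basis
  obtain ⟨k, a, hk, ha⟩ := exists_blk hF h31 h3 hx.1 hi
  have hk1 : k = 1 := by omega
  subst hk1
  let e : Fin 3 → (Fin 3 → F) := fun r => ee x a (finProdFinEquiv (0, r))
  have he : Ort q e := (ha.ort hF hx.1).comp (f := fun r => finProdFinEquiv (0, r)) (by
    intro r r' h
    exact congrArg Prod.snd (finProdFinEquiv.injective h))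
  have e01 : x (e 0) = e 1 := by
    change x (ee x a (finProdFinEquiv (0, 0))) = ee x a (finProdFinEquiv (0, 1))
    rw [ee_mk, ee_mk]; rfl
  have e12 : x (e 1) = e 2 := by
    change x (ee x a (finProdFinEquiv (0, 1))) = ee x a (finProdFinEquiv (0, 2))
    rw [ee_mk, ee_mk]; rfl
  have e20 : x (e 2) = l • e 0 := by rw [← e12, ← e01, hi.x3]
  clear_value e
  -- the root of unity
  obtain ⟨m, hm⟩ : ∃ m, q ^ 2 = 3 * m + 1 := by
    obtain ⟨t, ht⟩ : ∃ t, q = 3 * t + 2 := by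
      obtain ⟨k, hk⟩ := h31
      exact ⟨k - 1, by omega⟩
    exact ⟨3 * t * t + 4 * t + 1, by rw [ht]; ring⟩
  have hl0 := hi.l0
  set ζ : F := l ^ m with hζ
  have hl3m : l ^ (3 * m) = 1 := by
    have h1 := FiniteField.pow_card_sub_one_eq_one l hl0
    rwa [hF, hm, Nat.add_sub_cancel] at h1
  have hζ3 : ζ ^ 3 = 1 := by rw [hζ, ← pow_mul, mul_comm, hl3m]
  have hζ1 : ζ ≠ 1 := by
    intro h1
    obtain ⟨t, ht⟩ := cube_of_pow hF hm hl0 h1
    exact hi.nc t ht
  have hζn : ζ * ζ ^ q = 1 := by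
    rw [hζ, ← pow_mul, mul_comm m q, pow_mul, ← mul_pow, hi.nl, one_pow]
  -- `y` in the form with `ζ`
  obtain ⟨b', hr'⟩ : ∃ b', Reg q ζ y b' := by
    rcases root_cases hω.ne hω.cube hζ3 with h1 | h1 | h1
    · exact absurd h1 hζ1
    · exact ⟨b, by rw [h1]; exact hr⟩
    · refine ⟨fun i => b (![0, 2, 1] i), ⟨hr.ort.comp (by decide), hr.e0, ?_, ?_⟩⟩
      · change y (b 2) = ζ • b 2
        rw [hr.e2, h1]
      · change y (b 1) = ζ ^ 2 • b 1
        rw [hr.e1, h1]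
        congr 1
        linear_combination (-ω) * hω.cube
  -- the diagonal element `sp`
  have hg : Ort q ![e 0, ζ • e 1, ζ ^ 2 • e 2] := by
    intro i j
    have hζ2 : ζ ^ 2 * (ζ ^ 2) ^ q = 1 := by
      have : ζ ^ 2 * (ζ ^ 2) ^ q = (ζ * ζ ^ q) ^ 2 := by
        generalize ζ = z
        ring
      rw [this, hζn, one_pow]
    fin_cases i <;> fin_cases j <;>
      simp [herm_smul_left, herm_smul_right, he _ _]
    · rw [mul_comm]; exact hζn
    · rw [mul_comm]; exact hζ2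
  have hZiso := Zm_iso hF he hg (by
    intro z hz r
    fin_cases r <;> simp [herm_smul_right, hz])
  obtain ⟨sp, hsp, hspv⟩ := exists_perm hF (Zm q e ![e 0, ζ • e 1, ζ ^ 2 • e 2]).mulVecLin
    (fun u v => hZiso u v)
  have hsp0 : sp (e 0) = e 0 := by rw [hspv]; exact Zm_e he 0
  have hsp1 : sp (e 1) = ζ • e 1 := by rw [hspv]; exact Zm_e he 1
  have hsp2 : sp (e 2) = ζ ^ 2 • e 2 := by rw [hspv]; exact Zm_e he 2
  have hspR : Reg q ζ sp e := ⟨he, hsp0, hsp1, hsp2⟩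
  have hLsp : Lf D' 1 sp := by
    obtain ⟨t, ht⟩ := Reg.conj_eq hF hsp hy.1 hspR hr'
    rw [← ht]
    exact hy.conj h.symm t
  have hspsm : ∀ (c : F) (v : Fin 3 → F), sp (c • v) = c • sp v := fun c v => hsp.semi.smul c v
  have hxsm : ∀ (c : F) (v : Fin 3 → F), x (c • v) = c • x v := fun c v => hx.1.semi.smul c v
  have hζ0 : ζ ≠ 0 := pow_ne_zero _ hl0
  have hint : sp * x = smulA (Units.mk0 ζ hζ0) (x * sp) := by
    refine ext_onb hF (hsp.mul hx.1) ((hx.1.mul hsp).smulA hζn) he ?_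
    intro i
    rw [smulA_apply, Equiv.Perm.mul_apply, Equiv.Perm.mul_apply, Units.val_mk0]
    fin_cases i
    · change sp (x (e 0)) = ζ • x (sp (e 0))
      rw [e01, hsp0, hsp1, e01]
    · change sp (x (e 1)) = ζ • x (sp (e 1))
      rw [e12, hsp1, hxsm, e12, hsp2, smul_smul, pow_two]
    · change sp (x (e 2)) = ζ • x (sp (e 2))
      rw [e20, hsp2, hxsm, e20, hspsm, hsp0, smul_smul, ← pow_succ', hζ3, one_smul]
  have hsp3 : sp * sp * sp = 1 := by
    refine ext_onb hF ((hsp.mul hsp).mul hsp) SI.one he ?_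
    intro i
    rw [Equiv.Perm.mul_apply, Equiv.Perm.mul_apply]
    fin_cases i
    · change sp (sp (sp (e 0))) = e 0
      rw [hsp0, hsp0, hsp0]
    · change sp (sp (sp (e 1))) = e 1
      rw [hsp1, hspsm, hsp1, hspsm, hspsm, hsp1, smul_smul, smul_smul]
      have : ζ * ζ * ζ = 1 := by rw [← hζ3]; ring
      rw [this, one_smul]
    · change sp (sp (sp (e 2))) = e 2
      rw [hsp2, hspsm, hsp2, hspsm, hspsm, hsp2, smul_smul, smul_smul]
      have : ζ ^ 2 * ζ ^ 2 * ζ ^ 2 = 1 := by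
        linear_combination (ζ ^ 3 + 1) * hζ3
      rw [this, one_smul]
  -- endomorphisms
  obtain ⟨f0, hf0, -⟩ := exists_end hx.1.semi
  obtain ⟨g0, hg0, -⟩ := exists_end hsp.semi
  set f : Module.End F (Fin 3 → F) := (f0 : (Fin 3 → F) →ₗ[F] (Fin 3 → F)) with hfd
  set S : Module.End F (Fin 3 → F) := (g0 : (Fin 3 → F) →ₗ[F] (Fin 3 → F)) with hSd
  have hf : ∀ v, f v = x v := hf0
  have hS : ∀ v, S v = sp v := hg0
  have hf3 : f ^ 3 = l • (1 : Module.End F (Fin 3 → F)) := by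
    refine LinearMap.ext fun v => ?_
    change f (f (f v)) = l • v
    rw [hf, hf, hf, hi.x3]
  have hfP : aeval f (X ^ 3 - C l : F[X]) = 0 := by
    rw [map_sub, map_pow, aeval_X, aeval_C, hf3, Algebra.algebraMap_eq_smul_one, sub_self]
  have hfζ : f ^ q ^ 2 = ζ • f := by
    rw [hm, pow_succ, pow_mul, hf3, _root_.smul_pow, one_pow, smul_mul_assoc, one_mul]
  have hS3 : S * S * S = 1 := by
    refine LinearMap.ext fun v => ?_
    change S (S (S v)) = v
    rw [hS, hS, hS]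
    exact congrArg (fun p : Equiv.Perm (Fin 3 → F) => p v) hsp3
  have hSf : S * f = (ζ • f) * S := by
    refine LinearMap.ext fun v => ?_
    change S (f v) = ζ • f (S v)
    rw [hS, hf, hf, hS]
    exact congrArg (fun p : Equiv.Perm (Fin 3 → F) => p v) hint
  have hirr : Irreducible (X ^ 3 - C l : F[X]) :=
    X_pow_sub_C_irreducible_of_prime Nat.prime_three hi.nc
  have : Fact (Irreducible (X ^ 3 - C l : F[X])) := ⟨hirr⟩
  -- the element of order `r`
  obtain ⟨r, hrp, hr3, hrd, hrc⟩ := exists_r (q := q) (by omega) h31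
  have := Fact.mk hrp
  have hfinE : Module.Finite F (AdjoinRoot (X ^ 3 - C l : F[X])) :=
    (AdjoinRoot.powerBasis hirr.ne_zero).finite
  have hfin : Finite (AdjoinRoot (X ^ 3 - C l : F[X])) := Module.finite_of_finite F
  have : Fintype (AdjoinRoot (X ^ 3 - C l : F[X])) := Fintype.ofFinite _
  have hq3 : r ∣ q ^ 3 + 1 := by
    have h1 : q ^ 3 + 1 = (q ^ 2 - q + 1) * (q + 1) := by
      have h2 : q ≤ q ^ 2 := by nlinarith
      zify [h2]
      ring
    rw [h1]
    exact hrd.mul_right _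
  have hcard : r ∣ Fintype.card (AdjoinRoot (X ^ 3 - C l : F[X]))ˣ := by
    have h1 : Fintype.card (AdjoinRoot (X ^ 3 - C l : F[X])) = (q ^ 2) ^ 3 := by
      rw [Module.card_eq_pow_finrank (K := F), hF, (AdjoinRoot.powerBasis hirr.ne_zero).finrank,
        AdjoinRoot.powerBasis_dim, natDegree_X_pow_sub_C]
    rw [Fintype.card_units, h1]
    have h2 : (q ^ 2) ^ 3 - 1 = (q ^ 3 + 1) * (q ^ 3 - 1) := by
      have := Nat.sq_sub_sq (q ^ 3) 1
      rw [one_pow] at this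
      rw [← this]
      congr 1
      ring
    rw [h2]
    exact hq3.mul_right _
  obtain ⟨κ, hκ⟩ := exists_prime_orderOf_dvd_card r hcard
  have hκpow : ∀ {N : ℕ}, r ∣ N → ((κ : AdjoinRoot (X ^ 3 - C l : F[X])) ^ N) = 1 := by
    rintro N ⟨c, rfl⟩
    rw [← Units.val_pow_eq_pow_val, pow_mul, ← hκ, pow_orderOf_eq_one, one_pow, Units.val_one]
  obtain ⟨A, hA⟩ := AdjoinRoot.mk_surjective (κ : AdjoinRoot (X ^ 3 - C l : F[X]))
  have hroot3 : (AdjoinRoot.root (X ^ 3 - C l : F[X])) ^ 3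
      = algebraMap F (AdjoinRoot (X ^ 3 - C l : F[X])) l := by
    have h1 : AdjoinRoot.mk (X ^ 3 - C l : F[X]) (X ^ 3 - C l) = 0 := AdjoinRoot.mk_self
    rw [map_sub, map_pow, AdjoinRoot.mk_X, AdjoinRoot.mk_C] at h1
    exact sub_eq_zero.1 h1
  -- the isometry `K`
  have hfiso : ∀ u v, hermForm 3 F q (f u) (f v) = hermForm 3 F q u v := by
    intro u v
    rw [hf, hf, hx.1.herm]
    rfl
  have hN : f ^ (q ^ 3 + 1) = 1 := by
    obtain ⟨m', hm'⟩ := dvd_pow_add Nat.prime_three (by norm_num) h31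
    rw [hm', mul_assoc, pow_mul, hf3, _root_.smul_pow, one_pow, pow_mul, pow_succ' l q, hi.nl, one_pow,
      one_smul]
  set K := aeval f A with hK
  have hKiso : ∀ u v, hermForm 3 F q (K u) (K v) = hermForm 3 F q u v := by
    intro u v
    rw [hK, herm_aeval hF (j := 3) (by decide) hfiso hN]
    congr 1
    have h1 : aeval f (A ^ q ^ 3) ((aeval f A) v) = aeval f (A ^ (q ^ 3 + 1)) v := by
      rw [pow_succ A, map_mul]
      rfl
    rw [h1]
    have h2 : aeval f (A ^ (q ^ 3 + 1)) = aeval f (1 : F[X]) := by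
      apply aeval_congr hfP
      rw [map_pow, hA, map_one, hκpow hq3]
    rw [h2, map_one]
    rfl
  obtain ⟨kp, hkp, hkpv⟩ := exists_perm hF K hKiso
  obtain ⟨A0, hA0⟩ : ∃ A0 : F[X], A0 = A * X := ⟨_, rfl⟩
  have hkx : ∀ v, (kp * x) v = aeval f A0 v := by
    intro v
    rw [Equiv.Perm.mul_apply, hkpv, hA0, map_mul, aeval_X, Module.End.mul_apply, hf]
  have hA0mk : AdjoinRoot.mk (X ^ 3 - C l : F[X]) A0
      = (κ : AdjoinRoot (X ^ 3 - C l : F[X])) * AdjoinRoot.root (X ^ 3 - C l : F[X]) := by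
    rw [hA0, map_mul, hA, AdjoinRoot.mk_X]
  -- the new irreducible element
  have hc' : SI q (1 : F ≃+* F) (kp * x * sp) := by
    have := (hkp.mul hx.1).mul hsp
    simpa using this
  have hT : ∀ v, (kp * x * sp) v = (aeval f A0 * S) v := by
    intro v
    rw [Equiv.Perm.mul_apply, hkx, Module.End.mul_apply, hS]
  have hprod : aeval f (A0 * A0 ^ q ^ 2 * (A0 ^ q ^ 2) ^ q ^ 2) = l • (1 : Module.End F (Fin 3 → F)) := by
    have h1 : aeval f (A0 * A0 ^ q ^ 2 * (A0 ^ q ^ 2) ^ q ^ 2) = aeval f (C l) := by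
      apply aeval_congr hfP
      have h2 : A0 * A0 ^ q ^ 2 * (A0 ^ q ^ 2) ^ q ^ 2 = A0 ^ (1 + q ^ 2 + q ^ 2 * q ^ 2) := by
        rw [pow_add, pow_add, pow_one, pow_mul]
      rw [h2, map_pow, hA0mk, mul_pow, AdjoinRoot.mk_C]
      have h4 : r ∣ 1 + q ^ 2 + q ^ 2 * q ^ 2 := by
        have h5 : 1 + q ^ 2 + q ^ 2 * q ^ 2 = (q ^ 2 - q + 1) * (q ^ 2 + q + 1) := by
          have h6 : q ≤ q ^ 2 := by nlinarith
          zify [h6]
          ring
        rw [h5]
        exact hrd.mul_right _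
      rw [hκpow h4, one_mul]
      have h5 : 1 + q ^ 2 + q ^ 2 * q ^ 2 = 3 * (1 + 3 * m * (1 + m)) := by
        rw [hm]; ring
      rw [h5, pow_mul, hroot3, ← map_pow, pow_add, pow_one, pow_mul, hl3m, one_pow, mul_one]
      rfl
    rw [h1, aeval_C, Algebra.algebraMap_eq_smul_one]
  have hTTT : (aeval f A0 * S) * (aeval f A0 * S) * (aeval f A0 * S)
      = l • (1 : Module.End F (Fin 3 → F)) := by
    have h1 := frob hF hfζ hSf A0
    have h2 := frob hF hfζ hSf (A0 ^ q ^ 2)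
    calc (aeval f A0 * S) * (aeval f A0 * S) * (aeval f A0 * S)
        = aeval f A0 * (S * aeval f A0) * (S * aeval f A0) * S := by simp only [mul_assoc]
      _ = aeval f A0 * aeval f (A0 ^ q ^ 2) * (S * aeval f (A0 ^ q ^ 2)) * S * S := by
        rw [h1]; simp only [mul_assoc]
      _ = aeval f (A0 * A0 ^ q ^ 2 * (A0 ^ q ^ 2) ^ q ^ 2) * (S * S * S) := by
        rw [h2, map_mul, map_mul]; simp only [mul_assoc]
      _ = _ := by rw [hS3, mul_one, hprod]
  have hc'I : Irr q (kp * x * sp) l := by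
    refine ⟨fun v => ?_, hi.nl, hi.nc⟩
    change (kp * x * sp) ((kp * x * sp) ((kp * x * sp) v)) = l • v
    rw [hT, hT, hT]
    exact LinearMap.congr_fun hTTT v
  have hLc : Lf C' 1 (kp * x * sp) := by
    obtain ⟨s, hs⟩ := Irr.conj hF le_rfl h31 h3 hc' hx.1 hc'I hi
    rw [← hs]
    exact hx.conj h s
  -- the product is not a `3`-element
  obtain ⟨j, c, hc⟩ := pow_scal h hF le_rfl hLc hLsp
  rw [mul_inv_cancel_right] at hc
  have hpow : ∀ (N : ℕ) (v : Fin 3 → F), ((kp * x) ^ N) v = aeval f (A0 ^ N) v := by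
    intro N
    induction N with
    | zero => intro v; simp
    | succ N ih =>
      intro v
      rw [pow_succ, Equiv.Perm.mul_apply, ih, hkx, pow_succ A0, map_mul]
      rfl
  have h1 : aeval f (A0 ^ 3 ^ j - C c) = 0 := by
    refine LinearMap.ext fun v => ?_
    rw [map_sub, aeval_C, LinearMap.sub_apply, Module.algebraMap_end_apply, ← hpow, hc, sub_self]
    rfl
  have h2 := mk_of_aeval (by norm_num) hirr hfP h1
  rw [map_sub, map_pow, hA0mk, AdjoinRoot.mk_C, sub_eq_zero] at h2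
  have h4 : (κ : AdjoinRoot (X ^ 3 - C l : F[X])) ^ 3 ^ (j + 1)
      * algebraMap F _ (l ^ 3 ^ j) = algebraMap F _ (c ^ 3) := by
    have h5 := congrArg (fun z => z ^ 3) h2
    simp only [mul_pow] at h5
    rw [← pow_mul, ← pow_mul, ← pow_succ, pow_succ' 3 j, pow_mul (AdjoinRoot.root _), hroot3] at h5
    rw [map_pow, map_pow, pow_succ' 3 j]
    exact h5
  have hlj : l ^ 3 ^ j ≠ 0 := pow_ne_zero _ hl0
  set d : F := c ^ 3 / l ^ 3 ^ j with hd
  have h5 : (κ : AdjoinRoot (X ^ 3 - C l : F[X])) ^ 3 ^ (j + 1) = algebraMap F _ d := by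
    have h6 : algebraMap F (AdjoinRoot (X ^ 3 - C l : F[X])) (l ^ 3 ^ j) ≠ 0 := by
      rw [Ne, map_eq_zero]
      exact hlj
    apply mul_right_cancel₀ h6
    rw [h4, ← map_mul, hd, div_mul_cancel₀ _ hlj]
  have h6 : d ^ r = 1 := by
    apply (algebraMap F (AdjoinRoot (X ^ 3 - C l : F[X]))).injective
    rw [map_pow, ← h5, ← pow_mul, map_one]
    exact hκpow (Dvd.intro_left _ rfl)
  have hd0 : d ≠ 0 := by
    rintro h0
    rw [h0, zero_pow hrp.ne_zero] at h6
    exact zero_ne_one h6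
  have h7 : d ^ (q ^ 2 - 1) = 1 := by
    have := FiniteField.pow_card_sub_one_eq_one d hd0
    rwa [hF] at this
  have h8 : orderOf d ∣ Nat.gcd r (q ^ 2 - 1) :=
    Nat.dvd_gcd (orderOf_dvd_of_pow_eq_one h6) (orderOf_dvd_of_pow_eq_one h7)
  rw [hrc, Nat.dvd_one, orderOf_eq_one_iff] at h8
  rw [h8, map_one] at h5
  have h9 : orderOf κ ∣ 3 ^ (j + 1) := by
    apply orderOf_dvd_of_pow_eq_one
    apply Units.ext
    rw [Units.val_pow_eq_pow_val, h5, Units.val_one]
  rw [hκ] at h9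
  exact hr3 ((Nat.prime_dvd_prime_iff_eq hrp Nat.prime_three).1 (hrp.dvd_of_dvd_pow h9))

end Cfsg.Agent.H874.Wf
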