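import Cfsg.Agent.H874.Wf.Eig

/-!
# Good triples (S3826, row PSU, `3 ∣ q + 1`)
-/

set_option autoImplicit false
set_option linter.unusedSectionVars false

namespace Cfsg.Agent.H874.Wf

open Cfsg Cfsg.Agent.LieClassical.HermBasic Cfsg.Agent.LieClassical.HermSiegel
open Cfsg.Agent.LieClassical.SUBasic Matrix
open Cfsg.Agent.ClassicalGeometry.PSUAutCount Cfsg.Agent.ClassicalGeometry.UnitAutBasic
open Cfsg.Agent.H957.T5V Cfsg.Agent.H957.T5U
open Cfsg.Agent.H177.MeetPSU (rho rho_apply rho_injective yy yy_apply ind_yy uniq ind_scal)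
open Cfsg.Agent.H903.SylSemi (Ind scal scal_apply)
open Cfsg.Agent.H533.Wf

variable {F : Type} [Field F] [Fintype F] {n q : ℕ}
variable {Γ : Subgroup (MulAut (PSU n F q))} {C D : Set (MulAut (PSU n F q))}
  {σ τ : F ≃+* F} {x y : Equiv.Perm (Fin n → F)}

/-- Orthonormal families. -/
def Ort (q : ℕ) {k : ℕ} (b : Fin k → (Fin n → F)) : Prop :=
  ∀ i j, hermForm n F q (b i) (b j) = if i = j then 1 else 0

theorem Ort.perp_ne {k : ℕ} {b : Fin k → (Fin n → F)} (hF : Fintype.card F = q ^ 2)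
    (hb : Ort q b) {v : Fin n → F} (hv0 : v ≠ 0) (hv : ∀ i, hermForm n F q v (b i) = 0) :
    ∃ z, (∀ i, hermForm n F q z (b i) = 0) ∧ hermForm n F q v z ≠ 0 := by
  obtain ⟨x, hx⟩ := exists_herm_ne_zero hF hv0
  refine ⟨x - ∑ i, hermForm n F q x (b i) • b i, ?_, ?_⟩
  · intro j
    rw [herm_sub_left, herm_sum_left]
    simp only [herm_smul_left, hb _ _]
    simp
  · rw [herm_sub_right hF, herm_sum_right hF]
    simp only [herm_smul_right, hv, mul_zero, Finset.sum_const_zero, sub_zero]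
    exact hx

/-- A non-isotropic vector orthogonal to a family of fewer than `n` orthonormal vectors. -/
theorem Ort.exists_z {k : ℕ} {b : Fin k → (Fin n → F)} (hF : Fintype.card F = q ^ 2)
    (hb : Ort q b) (hk : k < n) :
    ∃ z, hermForm n F q z z ≠ 0 ∧ ∀ i, hermForm n F q z (b i) = 0 := by
  have hli := li_orth hF hb
  set Y := Cfsg.Agent.H77.Geom.perp (F := F) (n := n) q (Set.range b) with hY
  have hYm : ∀ y, y ∈ Y ↔ ∀ i, hermForm n F q y (b i) = 0 := by
    intro y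
    rw [hY, Cfsg.Agent.H77.Geom.mem_perp]
    simp
  have hY0 : Y ≠ ⊥ := by
    intro h0
    have h1 := Cfsg.Agent.H77.Geom.finrank_perp (q := q) hF hli
    rw [← hY, h0, finrank_bot] at h1
    omega
  obtain ⟨v, hv, hv0⟩ := Submodule.exists_mem_ne_zero_of_ne_bot hY0
  obtain ⟨z, hz, hvz⟩ := hb.perp_ne hF hv0 ((hYm v).1 hv)
  obtain ⟨w, hw, hww⟩ := ClassicalGeometry.HermWitt.exists_apply_self_ne_zero _
    (Cfsg.Agent.H77.Witt.formB hF n) (Cfsg.Agent.H77.Witt.conj_ne hF)
    (Cfsg.Agent.H77.Witt.formB_symm hF) Y ⟨z, (hYm z).2 hz, v, hv, hvz⟩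
  exact ⟨w, hww, (hYm w).1 hw⟩

/-- The expansion in an orthonormal basis. -/
theorem Ort.expand {b : Fin n → (Fin n → F)} (hF : Fintype.card F = q ^ 2)
    (hb : Ort q b) (v : Fin n → F) : v = ∑ i, hermForm n F q v (b i) • b i := by
  have hli := li_orth hF hb
  have h1 := Cfsg.Agent.H77.Geom.finrank_perp (q := q) hF hli
  have h2 : Cfsg.Agent.H77.Geom.perp (F := F) (n := n) q (Set.range b) = ⊥ := by
    apply Submodule.finrank_eq_zero.1
    omega
  have h3 : v - ∑ i, hermForm n F q v (b i) • b i ∈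
      Cfsg.Agent.H77.Geom.perp (F := F) (n := n) q (Set.range b) := by
    rw [Cfsg.Agent.H77.Geom.mem_perp]
    rintro _ ⟨j, rfl⟩
    rw [herm_sub_left, herm_sum_left]
    simp only [herm_smul_left, hb _ _]
    simp
  rw [h2, Submodule.mem_bot] at h3
  exact sub_eq_zero.1 h3

/-- Two vectors of an orthonormal triple exactly, the third one up to a scalar. -/
theorem exists_triple (hF : Fintype.card F = q ^ 2) (hn : 3 ≤ n) {b b' : Fin 3 → (Fin n → F)}
    (hb : Ort q b) (hb' : Ort q b') : ∃ s : SU n F q, ∃ κ : F, κ ≠ 0 ∧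
      act s (b' 0) = b 0 ∧ act s (b' 1) = b 1 ∧ act s (b' 2) = κ • b 2 := by
  rcases Nat.lt_or_ge 3 n with h4 | h4
  · obtain ⟨z, hz, hzb⟩ := hb.exists_z hF h4
    obtain ⟨s, hs⟩ := Cfsg.Agent.H77.Witt.exists_su_ext hF b' b (li_orth hF hb') (li_orth hF hb)
      (fun i j => by rw [hb' i j, hb i j]) hz hzb
    exact ⟨s, 1, one_ne_zero, hs 0, hs 1, by rw [hs 2, one_smul]⟩
  · have hn3 : n = 3 := by omega
    subst hn3
    have h2 : ∀ {b : Fin 3 → (Fin 3 → F)}, Ort q b → Ort q ![b 0, b 1] := by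
      intro b hb i j
      fin_cases i <;> fin_cases j <;> simp [hb _ _]
    obtain ⟨s, hs⟩ := Cfsg.Agent.H77.Witt.exists_su_ext hF ![b' 0, b' 1] ![b 0, b 1]
      (li_orth hF (h2 hb')) (li_orth hF (h2 hb)) (fun i j => by rw [h2 hb' i j, h2 hb i j])
      (z := b 2) (by rw [hb 2 2, if_pos rfl]; exact one_ne_zero)
      (by intro i; fin_cases i <;> simp [hb _ _])
    have hs0 : act s (b' 0) = b 0 := hs 0
    have hs1 : act s (b' 1) = b 1 := hs 1
    have hexp := hb.expand hF (act s (b' 2))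
    have e0 : hermForm 3 F q (act s (b' 2)) (b 0) = 0 := by
      rw [← hs0, herm_act, hb' 2 0]; simp
    have e1 : hermForm 3 F q (act s (b' 2)) (b 1) = 0 := by
      rw [← hs1, herm_act, hb' 2 1]; simp
    rw [Fin.sum_univ_three, e0, e1, zero_smul, zero_smul, zero_add, zero_add] at hexp
    refine ⟨s, hermForm 3 F q (act s (b' 2)) (b 2), ?_, hs0, hs1, hexp⟩
    intro h0
    rw [h0, zero_smul, act_eq_zero] at hexp
    have := hb' 2 2
    rw [hexp, herm_zero_left] at this
    simp at this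

/-- `x` acts on `⟨b 0, b 1⟩` and `⟨b 2⟩`. -/
structure GT (q : ℕ) (σ : F ≃+* F) (x : Equiv.Perm (Fin n → F)) (b : Fin 3 → (Fin n → F))
    (η η' : F) : Prop where
  ort : Ort q b
  e0 : x (b 0) = η • b 0
  e1 : x (b 1) = η • b 1
  e2 : x (b 2) = η' • b 2
  ne : σ ≠ 1 ∨ η ≠ η'

theorem GT.move (h : ACfg 3 Γ C D) (hF : Fintype.card F = q ^ 2) (hn : 3 ≤ n)
    (hx : Lf C σ x) {b b' : Fin 3 → (Fin n → F)} {η η' : F} (hg : GT q σ x b' η η')
    (hb : Ort q b) : ∃ x' η'', Lf C σ x' ∧ GT q σ x' b η η'' := by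
  obtain ⟨s, κ, hκ, h0, h1, h2⟩ := exists_triple hF hn hb hg.ort
  refine ⟨_, σ κ⁻¹ * (η' * κ), hx.conj h s, ⟨hb, ?_, ?_, ?_, ?_⟩⟩
  · rw [← h0, conj_apply', hg.e0, act_smul]
  · rw [← h1, conj_apply', hg.e1, act_smul]
  · have h3 : b 2 = act s (κ⁻¹ • b' 2) := by
      rw [act_smul, h2, smul_smul, inv_mul_cancel₀ hκ, one_smul]
    conv_lhs => rw [h3]
    rw [conj_apply', hx.1.semi.smul, hg.e2, act_smul, act_smul, h2, smul_smul, smul_smul,
      mul_assoc]
  · rcases hg.ne with h | h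
    · exact Or.inl h
    · by_cases hσ : σ = 1
      · right
        subst hσ
        have : (1 : F ≃+* F) κ⁻¹ = κ⁻¹ := rfl
        rw [this, mul_comm η', ← mul_assoc, inv_mul_cancel₀ hκ, one_mul]
        exact h
      · exact Or.inl hσ

theorem GT.norm (hF : Fintype.card F = q ^ 2) (hx : SI q σ x) {b : Fin 3 → (Fin n → F)} {η η' : F}
    (hg : GT q σ x b η η') : η * η ^ q = 1 := by
  have h1 := hx.herm (b 0) (b 0)
  rw [hg.e0, herm_smul_left, herm_smul_right, hg.ort 0 0, if_pos rfl, map_one, mul_one] at h1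
  exact h1

theorem GT.norm' (hF : Fintype.card F = q ^ 2) (hx : SI q σ x) {b : Fin 3 → (Fin n → F)} {η η' : F}
    (hg : GT q σ x b η η') : η' * η' ^ q = 1 := by
  have h1 := hx.herm (b 2) (b 2)
  rw [hg.e2, herm_smul_left, herm_smul_right, hg.ort 2 2, if_pos rfl, map_one, mul_one] at h1
  exact h1

/-- Two elements with good triples. -/
theorem false_of_GT (h : ACfg 3 Γ C D) (hF : Fintype.card F = q ^ 2) (hn : 3 ≤ n)
    (h3 : (3 : F) ≠ 0) (hx : Lf C σ x) (hy : Lf D τ y) {b b' : Fin 3 → (Fin n → F)}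
    {η η' θ θ' : F} (h1 : GT q σ x b η η') (h2 : GT q τ y b' θ θ') : False := by
  obtain ⟨y1, θ1, hy1, h2'⟩ := h2.move h.symm hF hn hy h1.ort
  have hσ := hx.auto_cube h hF hn
  have hτ := hy.auto_cube h.symm hF hn
  obtain ⟨l, hl, hlσ, hlτ⟩ := exists_lam hF hσ hτ
  have hb := h1.ort
  have b00 : hermForm n F q (b 0) (b 0) = 1 := by rw [hb 0 0]; simp
  have b11 : hermForm n F q (b 1) (b 1) = 1 := by rw [hb 1 1]; simp
  have b22 : hermForm n F q (b 2) (b 2) = 1 := by rw [hb 2 2]; simp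
  have b01 : hermForm n F q (b 0) (b 1) = 0 := by rw [hb 0 1]; simp
  have b10 : hermForm n F q (b 1) (b 0) = 0 := by rw [hb 1 0]; simp
  have b02 : hermForm n F q (b 0) (b 2) = 0 := by rw [hb 0 2]; simp
  have b12 : hermForm n F q (b 1) (b 2) = 0 := by rw [hb 1 2]; simp
  have b20 : hermForm n F q (b 2) (b 0) = 0 := by rw [hb 2 0]; simp
  have b21 : hermForm n F q (b 2) (b 1) = 0 := by rw [hb 2 1]; simp
  set v := b 0 + l • b 1 with hv
  have hv0 : v ≠ 0 := by
    intro h0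
    have h4 : hermForm n F q v (b 0) = 0 := by rw [h0, herm_zero_left]
    rw [hv, herm_add_left, herm_smul_left, b00, b10, mul_zero, add_zero] at h4
    exact one_ne_zero h4
  have hvv : hermForm n F q v v = 0 := by
    rw [hv, herm_add_left, herm_add_right hF, herm_add_right hF, herm_smul_left, herm_smul_left,
      herm_smul_right, herm_smul_right, b00, b01, b10, b11]
    linear_combination hl
  have hxv : x v = η • v := by
    rw [hv, hx.1.semi.add, hx.1.semi.smul, h1.e0, h1.e1, hlσ, smul_add, smul_comm]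
  have hyv : y1 v = θ • v := by
    rw [hv, hy1.1.semi.add, hy1.1.semi.smul, h2'.e0, h2'.e1, hlτ, smul_add, smul_comm]
  have hvb : hermForm n F q v (b 2) = 0 := by
    rw [hv, herm_add_left, herm_smul_left, b02, b12, mul_zero, add_zero]
  have hη := h1.norm hF hx.1
  have hη' := h1.norm' hF hx.1
  have hθ := h2'.norm hF hy1.1
  refine ded hσ hτ (a := η ^ q * η') (b := θ ^ q * θ1) ?_ ?_ ?_ ?_
  · intro h0
    rcases mul_eq_zero.1 h0 with h4 | h4
    · rw [h4, mul_zero] at hη; exact zero_ne_one hη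
    · rw [h4, zero_mul] at hη'; exact zero_ne_one hη'
  · rcases h1.ne with h4 | h4
    · exact Or.inl h4
    · right
      intro h5
      apply h4
      calc η = η * (η ^ q * η') := by rw [h5, mul_one]
        _ = η * η ^ q * η' := by ring
        _ = η' := by rw [hη, one_mul]
  · rcases h2'.ne with h4 | h4
    · exact Or.inl h4
    · right
      intro h5
      apply h4
      calc θ = θ * (θ ^ q * θ1) := by rw [h5, mul_one]
        _ = θ * θ ^ q * θ1 := by ring
        _ = θ1 := by rw [hθ, one_mul]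
  · intro t
    obtain ⟨e, he⟩ := act_perp h hF hn h3 hx hy1 hv0 hvv hxv hyv (w := t • b 2)
      (by rw [herm_smul_left, hv, herm_add_right hF, herm_smul_right, b20, b21]; ring)
    have h4 : θ ^ q • y1 (t • b 2) - t • b 2 = (θ ^ q * θ1 * τ t - t) • b 2 := by
      rw [hy1.1.semi.smul, h2'.e2]
      module
    rw [h4] at he
    generalize θ ^ q * θ1 * τ t - t = δ at he ⊢
    rw [hx.1.semi.smul, h1.e2] at he
    have h5 := congrArg (fun u => hermForm n F q u (b 2)) he
    simp only [herm_add_left, herm_smul_left, b22, hvb] at h5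
    linear_combination h5

end Cfsg.Agent.H874.Wf
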